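import Mathlib
import Cfsg.Prelude.Def_GeometricClasses

/-!
Normal forms and determinant-one conjugacy for elements of small order in `GL_4`.
-/

set_option autoImplicit false

namespace CfsgLib.HeisFour

open Matrix Module

variable {F : Type*} [Field F] [Fintype F]

local notation "M4" => Matrix (Fin 4) (Fin 4) F
local notation "V4" => (Fin 4 → F)

omit [Fintype F] in
/-- Conjugating in `SL_4` through a common normal form. -/
theorem transport {x y P Q D : GL (Fin 4) F} (hx : x * P = P * D) (hy : y * Q = Q * D)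
    (hcent : ∀ δ : Fˣ, ∃ E : GL (Fin 4) F, E * D = D * E ∧ Matrix.GeneralLinearGroup.det E = δ) :
    ∃ g ∈ Cfsg.Geo.specialLinear (Fin 4) F, g⁻¹ * x * g = y := by
  obtain ⟨E, hED, hE⟩ := hcent (Matrix.GeneralLinearGroup.det Q * (Matrix.GeneralLinearGroup.det P)⁻¹)
  refine ⟨P * E * Q⁻¹, ?_, ?_⟩
  · show Matrix.GeneralLinearGroup.det _ = 1
    rw [map_mul, map_mul, map_inv, hE, mul_comm (Matrix.GeneralLinearGroup.det P), inv_mul_cancel_right, mul_inv_cancel]
  · have hx' : x = P * D * P⁻¹ := by rw [← hx, mul_inv_cancel_right]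
    have hy' : y = Q * D * Q⁻¹ := by rw [← hy, mul_inv_cancel_right]
    calc (P * E * Q⁻¹)⁻¹ * x * (P * E * Q⁻¹) = Q * (E⁻¹ * (D * E)) * Q⁻¹ := by rw [hx']; group
      _ = y := by rw [← hED, inv_mul_cancel_left, hy']

omit [Fintype F] in
/-- A matrix with prescribed columns. -/
theorem exists_cols (v : Fin 4 → V4) (hv : LinearIndependent F v) :
    ∃ P : GL (Fin 4) F, ∀ k, (P : M4) *ᵥ Pi.single k 1 = v k := by
  have hu : IsUnit (Matrix.of fun r k => v k r) := by
    rw [← Matrix.linearIndependent_cols_iff_isUnit]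
    exact hv
  exact ⟨hu.unit, fun k => by rw [IsUnit.unit_spec, Matrix.mulVec_single_one]; rfl⟩

omit [Fintype F] in
theorem mul_eq_of_cols {x P D : GL (Fin 4) F} (v : Fin 4 → V4) (hP : ∀ k, (P : M4) *ᵥ Pi.single k 1 = v k)
    (h : ∀ k, (x : M4) *ᵥ v k =
      (D : M4) 0 k • v 0 + (D : M4) 1 k • v 1 + (D : M4) 2 k • v 2 + (D : M4) 3 k • v 3) : x * P = P * D := by
  refine Units.ext (Matrix.ext_of_mulVec_single fun k => ?_)
  rw [Units.val_mul, Units.val_mul, ← Matrix.mulVec_mulVec, ← Matrix.mulVec_mulVec, hP, h]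
  funext r
  simp only [← hP, Matrix.mulVec_single_one, Pi.add_apply, Pi.smul_apply, Matrix.col_apply, smul_eq_mul]
  simp only [Matrix.mulVec, dotProduct, Fin.sum_univ_four, Matrix.col_apply]
  ring

omit [Fintype F] in
theorem trace_eq {x P D : GL (Fin 4) F} (h : x * P = P * D) : (x : M4).trace = (D : M4).trace := by
  have hx : x = P * D * P⁻¹ := by rw [← h, mul_inv_cancel_right]
  rw [hx, Units.val_mul, Units.val_mul, Matrix.trace_mul_comm, ← mul_assoc, ← Units.val_mul, inv_mul_cancel,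
    Units.val_one, one_mul]

/-- The companion pair. -/
def Cq (α β : F) : M4 := !![0, β, 0, 0; 1, α, 0, 0; 0, 0, 0, β; 0, 0, 1, α]
/-- A companion block and a trivial block. -/
def Cm : M4 := !![0, -1, 0, 0; 1, -1, 0, 0; 0, 0, 1, 0; 0, 0, 0, 1]

omit [Fintype F] in
theorem det_Cq (α β : F) : (Cq α β).det = β * β := by
  simp [Cq, Matrix.det_succ_row_zero, Fin.sum_univ_succ, Fin.succAbove]

omit [Fintype F] in
theorem det_Cm : (Cm : M4).det = 1 := by
  simp [Cm, Matrix.det_succ_row_zero, Fin.sum_univ_succ, Fin.succAbove]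

/-- The companion pair as a unit. -/
noncomputable def Dq (α β : F) (hβ : β ≠ 0) : GL (Fin 4) F :=
  Matrix.GeneralLinearGroup.mkOfDetNeZero (Cq α β) (by rw [det_Cq]; exact mul_ne_zero hβ hβ)

/-- A companion block and a trivial block as a unit. -/
noncomputable def Dm : GL (Fin 4) F :=
  Matrix.GeneralLinearGroup.mkOfDetNeZero (Cm : M4) (by rw [det_Cm]; exact one_ne_zero)

omit [Fintype F] in
/-- Two independent vectors from one without eigenvalues. -/
theorem pair_indep {x : M4} {α β : F} (hno : ∀ c : F, c * c ≠ α * c + β) {v : V4} (hv : v ≠ 0)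
    (hq : x *ᵥ (x *ᵥ v) = α • (x *ᵥ v) + β • v) {s t : F} (h : s • v + t • (x *ᵥ v) = 0) : s = 0 ∧ t = 0 := by
  by_cases ht : t = 0
  · rw [ht, zero_smul, add_zero] at h
    exact ⟨(smul_eq_zero.1 h).resolve_right hv, ht⟩
  · exfalso
    have hev : x *ᵥ v = (-(s / t)) • v := by
      have h1 : t • (x *ᵥ v) = -(s • v) := eq_neg_of_add_eq_zero_right h
      rw [← one_smul F (x *ᵥ v), ← inv_mul_cancel₀ ht, ← smul_smul, h1, smul_neg, smul_smul, neg_smul, div_eq_inv_mul]
    rw [hev, Matrix.mulVec_smul, hev, smul_smul, smul_smul, ← add_smul] at hq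
    exact hno _ (smul_left_injective F hv hq)

omit [Fintype F] in
/-- The normal form of a quadratic map without eigenvalues. -/
theorem quad_form {x : GL (Fin 4) F} {α β : F} (hβ : β ≠ 0) (hno : ∀ c : F, c * c ≠ α * c + β)
    (hq : ∀ u : V4, (x : M4) *ᵥ ((x : M4) *ᵥ u) = α • ((x : M4) *ᵥ u) + β • u) :
    ∃ P : GL (Fin 4) F, x * P = P * Dq α β hβ := by
  set M := (x : M4)
  let v : V4 := Pi.single 0 1
  have hv : v ≠ 0 := fun h => by simpa [v] using congrFun h 0
  obtain ⟨w, hw⟩ : ∃ w : V4, ∀ s t : F, w ≠ s • v + t • (M *ᵥ v) := by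
    by_contra hc
    push Not at hc
    have htop : (⊤ : Submodule F V4) ≤ Submodule.span F {v, M *ᵥ v} := fun w _ => by
      obtain ⟨s, t, rfl⟩ := hc w
      exact Submodule.mem_span_pair.2 ⟨s, t, rfl⟩
    have h1 := Submodule.finrank_mono htop
    classical
    have h3 : finrank F (Submodule.span F ({v, M *ᵥ v} : Set V4)) ≤ 2 := by
      refine (finrank_span_le_card _).trans ?_
      simp only [Set.toFinset_insert, Set.toFinset_singleton]
      exact Finset.card_le_two
    rw [finrank_top, Module.finrank_fin_fun] at h1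
    omega
  let e : Fin 4 → V4 := ![v, M *ᵥ v, w, M *ᵥ w]
  have hli : LinearIndependent F e := by
    rw [Fintype.linearIndependent_iff]
    intro c hc
    rw [Fin.sum_univ_four] at hc
    simp only [e, Matrix.cons_val] at hc
    have hw0 : w ≠ 0 := fun h => hw 0 0 (by rw [h]; simp)
    have h23 : c 2 = 0 ∧ c 3 = 0 := by
      by_contra hne
      have hd : c 2 * c 2 + α * (c 2 * c 3) - β * (c 3 * c 3) ≠ 0 := by
        intro hd
        by_cases h3 : c 3 = 0
        · exact hne ⟨by rw [h3] at hd; simpa using hd, h3⟩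
        · exact hno (-(c 2 / c 3)) (by field_simp; linear_combination hd)
      -- solve for `w`
      have hMc := congrArg (M *ᵥ ·) hc
      simp only [Matrix.mulVec_add, Matrix.mulVec_smul, Matrix.mulVec_zero, hq] at hMc
      have hcomb : (c 2 * c 2 + α * (c 2 * c 3) - β * (c 3 * c 3)) • w =
          (-((c 2 + α * c 3) * c 0) + c 3 * c 1 * β) • v + (-((c 2 + α * c 3) * c 1) + c 3 * (c 0 + α * c 1)) • (M *ᵥ v) := by
        linear_combination (norm := module) (c 2 + α * c 3) • hc - c 3 • hMc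
      apply hw ((c 2 * c 2 + α * (c 2 * c 3) - β * (c 3 * c 3))⁻¹ * (-((c 2 + α * c 3) * c 0) + c 3 * c 1 * β))
        ((c 2 * c 2 + α * (c 2 * c 3) - β * (c 3 * c 3))⁻¹ * (-((c 2 + α * c 3) * c 1) + c 3 * (c 0 + α * c 1)))
      rw [← smul_smul, ← smul_smul, ← smul_add, ← hcomb, inv_smul_smul₀ hd]
    rw [h23.1, h23.2, zero_smul, zero_smul, add_zero, add_zero] at hc
    obtain ⟨h0, h1⟩ := pair_indep hno hv (hq v) hc
    intro k
    fin_cases k
    exacts [h0, h1, h23.1, h23.2]
  obtain ⟨P, hP⟩ := exists_cols e hli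
  refine ⟨P, mul_eq_of_cols e hP fun k => ?_⟩
  show M *ᵥ e k = (Cq α β) 0 k • e 0 + (Cq α β) 1 k • e 1 + (Cq α β) 2 k • e 2 + (Cq α β) 3 k • e 3
  fin_cases k <;> simp [e, Cq, hq, -Matrix.mulVec_mulVec] <;> abel

omit [Fintype F] in
/-- The normal form of an element of order three without cube roots of unity in the field. -/
theorem three_form (h3 : (3 : F) ≠ 0) (hno : ∀ c : F, c * c ≠ (-1) * c + (-1)) {x : GL (Fin 4) F} (hx : x ^ 3 = 1)
    (hns : x ≠ 1) :
    (∃ P : GL (Fin 4) F, x * P = P * Dq (-1) (-1) (neg_ne_zero.2 one_ne_zero)) ∨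
      ∃ P : GL (Fin 4) F, x * P = P * Dm := by
  set M := (x : M4)
  have hM3 : ∀ u, M *ᵥ (M *ᵥ (M *ᵥ u)) = u := fun u => by
    rw [Matrix.mulVec_mulVec, Matrix.mulVec_mulVec, ← Units.val_mul, ← Units.val_mul, ← sq, ← pow_succ, hx,
      Units.val_one, Matrix.one_mulVec]
  by_cases hfix : ∀ u, M *ᵥ (M *ᵥ u) = (-1 : F) • (M *ᵥ u) + (-1 : F) • u
  · exact Or.inl (quad_form _ hno hfix)
  right
  push Not at hfix
  let N : Module.End F V4 := Matrix.toLin' (M * M + M + 1)
  let W₀ := LinearMap.ker N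
  let W₁ := LinearMap.ker (Matrix.toLin' (M - 1))
  have hN : ∀ u, N u = M *ᵥ (M *ᵥ u) + M *ᵥ u + u := fun u => by
    simp [N, Matrix.add_mulVec, Matrix.mulVec_mulVec]
  have hW₁ : ∀ u, u ∈ W₁ ↔ M *ᵥ u = u := fun u => by
    simp [W₁, LinearMap.mem_ker, Matrix.sub_mulVec, sub_eq_zero]
  have hW₀ : ∀ u, u ∈ W₀ ↔ M *ᵥ (M *ᵥ u) + M *ᵥ u + u = 0 := fun u => by rw [LinearMap.mem_ker, hN]
  -- a fixed vector
  obtain ⟨u₁, hu₁⟩ := hfix
  have hb0 : N u₁ ≠ 0 := fun h => hu₁ (by
    rw [hN] at h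
    rw [neg_one_smul, neg_one_smul]
    linear_combination (norm := abel) h)
  have hbW : N u₁ ∈ W₁ := by
    rw [hW₁, hN]
    simp only [Matrix.mulVec_add, hM3]
    abel
  -- a moved vector
  obtain ⟨u₀, hu₀⟩ : ∃ u, M *ᵥ u ≠ u := by
    by_contra h
    push Not at h
    exact hns (Units.ext (Matrix.ext_iff_mulVec.2 fun u => by rw [h, Units.val_one, Matrix.one_mulVec]))
  set v := M *ᵥ u₀ - u₀ with hvd
  have hv0 : v ≠ 0 := sub_ne_zero.2 hu₀
  have hvW : v ∈ W₀ := by
    rw [hW₀]
    simp only [hvd, Matrix.mulVec_sub, hM3]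
    abel
  have hqv : ∀ u ∈ W₀, M *ᵥ (M *ᵥ u) = (-1 : F) • (M *ᵥ u) + (-1 : F) • u := fun u hu => by
    rw [hW₀] at hu
    rw [neg_one_smul, neg_one_smul]
    linear_combination (norm := abel) hu
  have hMW : ∀ u ∈ W₀, M *ᵥ u ∈ W₀ := fun u hu => by
    rw [hW₀] at hu ⊢
    have := congrArg (M *ᵥ ·) hu
    simpa [Matrix.mulVec_add, -Matrix.mulVec_mulVec] using this
  have hli₀ : LinearIndependent F ![v, M *ᵥ v] := by
    rw [LinearIndependent.pair_iff]
    intro s t h
    exact pair_indep hno hv0 (hqv v hvW) h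
  -- dimensions
  have hsup : IsCompl W₀ W₁ := by
    constructor
    · rw [Submodule.disjoint_def]
      intro u h0 h1
      rw [hW₀] at h0
      rw [hW₁] at h1
      rw [h1, h1] at h0
      have : (3 : F) • u = 0 := by linear_combination (norm := module) h0
      exact (smul_eq_zero.1 this).resolve_left h3
    · rw [codisjoint_iff, eq_top_iff]
      intro u _
      rw [Submodule.mem_sup]
      refine ⟨u - (3 : F)⁻¹ • N u, ?_, (3 : F)⁻¹ • N u, ?_, sub_add_cancel _ _⟩
      · rw [hW₀]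
        simp only [hN, Matrix.mulVec_sub, Matrix.mulVec_smul, Matrix.mulVec_add, hM3]
        match_scalars <;> field_simp <;> ring
      · refine W₁.smul_mem _ ?_
        rw [hW₁, hN]
        simp only [Matrix.mulVec_add, hM3]
        abel
  have hdim := Submodule.finrank_add_eq_of_isCompl hsup
  rw [Module.finrank_fin_fun] at hdim
  -- `W₁` has dimension at most two
  have h0le : 2 ≤ finrank F W₀ := by
    have h1 : finrank F (Submodule.span F (Set.range ![v, M *ᵥ v])) = 2 := by
      rw [finrank_span_eq_card hli₀]; simp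
    rw [← h1]
    refine Submodule.finrank_mono (Submodule.span_le.2 ?_)
    rintro _ ⟨k, rfl⟩
    fin_cases k
    · exact hvW
    · exact hMW v hvW
  have h1pos : 1 ≤ finrank F W₁ := by
    rw [Nat.one_le_iff_ne_zero]
    intro h
    rw [Submodule.finrank_eq_zero] at h
    exact hb0 ((Submodule.mem_bot F).1 (h ▸ hbW))
  have h0ne : finrank F W₀ ≠ 3 := by
    intro h
    have hlt : Submodule.span F (Set.range ![v, M *ᵥ v]) < W₀ := by
      refine lt_of_le_of_ne (Submodule.span_le.2 ?_) fun e => ?_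
      · rintro _ ⟨k, rfl⟩
        fin_cases k
        · exact hvW
        · exact hMW v hvW
      · have h1 := finrank_span_eq_card hli₀
        rw [e, h] at h1
        simp at h1
    obtain ⟨w, hw, hwS⟩ := SetLike.exists_of_lt hlt
    have hli : LinearIndependent F ![v, M *ᵥ v, w, M *ᵥ w] := by
      rw [Fintype.linearIndependent_iff]
      intro c hc
      rw [Fin.sum_univ_four] at hc
      simp only [Matrix.cons_val] at hc
      have hmemS : ∀ s t : F, s • v + t • (M *ᵥ v) ∈ Submodule.span F (Set.range ![v, M *ᵥ v]) := fun s t =>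
        add_mem (Submodule.smul_mem _ _ (Submodule.subset_span ⟨0, rfl⟩))
          (Submodule.smul_mem _ _ (Submodule.subset_span ⟨1, rfl⟩))
      have h23 : c 2 = 0 ∧ c 3 = 0 := by
        by_contra hne
        have hd : c 2 * c 2 - c 2 * c 3 + c 3 * c 3 ≠ 0 := by
          intro hd
          by_cases h3' : c 3 = 0
          · exact hne ⟨by rw [h3'] at hd; simpa using hd, h3'⟩
          · exact hno (-(c 2 / c 3)) (by field_simp; linear_combination hd)
        have hMc := congrArg (M *ᵥ ·) hc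
        simp only [Matrix.mulVec_add, Matrix.mulVec_smul, Matrix.mulVec_zero, hqv v hvW, hqv w hw] at hMc
        apply hwS
        rw [show w = (c 2 * c 2 - c 2 * c 3 + c 3 * c 3)⁻¹ • ((-((c 2 - c 3) * c 0) - c 3 * c 1) • v +
            (-((c 2 - c 3) * c 1) + c 3 * (c 0 - c 1)) • (M *ᵥ v)) by
          rw [eq_inv_smul_iff₀ hd]
          linear_combination (norm := module) (c 2 - c 3) • hc - c 3 • hMc]
        exact Submodule.smul_mem _ _ (hmemS _ _)
      rw [h23.1, h23.2, zero_smul, zero_smul, add_zero, add_zero] at hc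
      obtain ⟨e0, e1⟩ := pair_indep hno hv0 (hqv v hvW) hc
      intro k
      fin_cases k
      exacts [e0, e1, h23.1, h23.2]
    have hle : finrank F (Submodule.span F (Set.range ![v, M *ᵥ v, w, M *ᵥ w])) ≤ finrank F W₀ := by
      refine Submodule.finrank_mono (Submodule.span_le.2 ?_)
      rintro _ ⟨k, rfl⟩
      fin_cases k
      · exact hvW
      · exact hMW v hvW
      · exact hw
      · exact hMW w hw
    rw [finrank_span_eq_card hli, h] at hle
    simp at hle
  have h1two : finrank F W₁ = 2 := by omega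
  let b := Module.finBasisOfFinrankEq F W₁ h1two
  have hli₁ : LinearIndependent F ![((b 0 : W₁) : V4), ((b 1 : W₁) : V4)] := by
    rw [LinearIndependent.pair_iff]
    intro s t h
    have h' : s • b 0 + t • b 1 = 0 := Subtype.ext h
    have := Fintype.linearIndependent_iff.1 b.linearIndependent ![s, t] (by rw [Fin.sum_univ_two]; exact h')
    exact ⟨this 0, this 1⟩
  let e : Fin 4 → V4 := ![v, M *ᵥ v, (b 0 : W₁), (b 1 : W₁)]
  have hli : LinearIndependent F e := by
    rw [Fintype.linearIndependent_iff]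
    intro c hc
    rw [Fin.sum_univ_four] at hc
    simp only [e, Matrix.cons_val] at hc
    have hA : c 0 • v + c 1 • (M *ᵥ v) = 0 := by
      refine (Submodule.disjoint_def.1 hsup.disjoint) _ (add_mem (W₀.smul_mem _ hvW) (W₀.smul_mem _ (hMW v hvW))) ?_
      rw [show c 0 • v + c 1 • (M *ᵥ v) = -(c 2 • ((b 0 : W₁) : V4) + c 3 • ((b 1 : W₁) : V4)) by
        linear_combination (norm := module) hc]
      exact neg_mem (add_mem (W₁.smul_mem _ (b 0).2) (W₁.smul_mem _ (b 1).2))
    obtain ⟨e0, e1⟩ := pair_indep hno hv0 (hqv v hvW) hA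
    rw [e0, e1, zero_smul, zero_smul, zero_add, zero_add] at hc
    obtain ⟨e2, e3⟩ := LinearIndependent.pair_iff.1 hli₁ _ _ hc
    intro k
    fin_cases k
    exacts [e0, e1, e2, e3]
  obtain ⟨P, hP⟩ := exists_cols e hli
  refine ⟨P, mul_eq_of_cols e hP fun k => ?_⟩
  show M *ᵥ e k = (Cm : M4) 0 k • e 0 + (Cm : M4) 1 k • e 1 + (Cm : M4) 2 k • e 2 + (Cm : M4) 3 k • e 3
  have f0 := (hW₁ _).1 (b 0).2
  have f1 := (hW₁ _).1 (b 1).2
  fin_cases k <;> simp [e, Cm, f0, f1, hqv v hvW, -Matrix.mulVec_mulVec] <;> abel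

/-- The centraliser of a companion block and a trivial block has all determinants. -/
theorem cent_Dm (δ : Fˣ) : ∃ E : GL (Fin 4) F, E * Dm = Dm * E ∧ Matrix.GeneralLinearGroup.det E = δ := by
  have hd : (Matrix.diagonal ![1, 1, (δ : F), 1]).det = (δ : F) := by simp [Matrix.det_diagonal, Fin.prod_univ_four]
  refine ⟨Matrix.GeneralLinearGroup.mkOfDetNeZero _ (show _ ≠ (0 : F) from fun h => δ.ne_zero (hd.symm.trans h)), Units.ext ?_, Units.ext hd⟩
  show Matrix.diagonal ![1, 1, (δ : F), 1] * Cm = Cm * Matrix.diagonal ![1, 1, (δ : F), 1]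
  ext r k
  rw [Matrix.diagonal_mul, Matrix.mul_diagonal]
  fin_cases r <;> fin_cases k <;> simp [Cm]

/-- The centraliser of the companion pair of `X ^ 2 + X + 1` has all determinants. -/
theorem cent_Dq (h2 : (2 : F) ≠ 0) (h3 : (3 : F) ≠ 0) (hodd : Fintype.card F % 2 = 1) (δ : Fˣ) :
    ∃ E : GL (Fin 4) F, E * Dq (-1) (-1) (neg_ne_zero.2 one_ne_zero) = Dq (-1) (-1) (neg_ne_zero.2 one_ne_zero) * E ∧
      Matrix.GeneralLinearGroup.det E = δ := by
  obtain ⟨s, t, hst⟩ := FiniteField.exists_root_sum_quadratic (R := F)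
    (f := Polynomial.X ^ 2) (g := Polynomial.C 3 * Polynomial.X ^ 2 - Polynomial.C (δ : F))
    (Polynomial.degree_X_pow 2) (by
      rw [Polynomial.degree_sub_eq_left_of_degree_lt]
      · exact Polynomial.degree_C_mul_X_pow 2 h3
      · rw [Polynomial.degree_C_mul_X_pow 2 h3]
        exact Polynomial.degree_C_le.trans_lt (by norm_num)) hodd
  simp only [Polynomial.eval_pow, Polynomial.eval_X, Polynomial.eval_sub, Polynomial.eval_mul, Polynomial.eval_C] at hst
  let E : M4 := !![s + t, -(2 * t), 0, 0; 2 * t, s + t - 2 * t, 0, 0; 0, 0, 1, 0; 0, 0, 0, 1]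
  have hd : E.det = (δ : F) := by
    simp [E, Matrix.det_succ_row_zero, Fin.sum_univ_succ, Fin.succAbove]
    linear_combination hst
  refine ⟨Matrix.GeneralLinearGroup.mkOfDetNeZero E (show _ ≠ (0 : F) from fun h => δ.ne_zero (hd.symm.trans h)), Units.ext ?_, Units.ext hd⟩
  show E * Cq (-1) (-1) = Cq (-1) (-1) * E
  ext r k
  fin_cases r <;> fin_cases k <;> simp [E, Cq, Matrix.mul_apply, Fin.sum_univ_four] <;> ring

/-- Elements of order five are conjugate in `SL_4` when `p` has order four modulo five. -/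
theorem five_conj {p : ℕ} [Fact p.Prime] (hF : Fintype.card F = p) [CharP F p] (h5 : orderOf (p : ZMod 5) = 4)
    {x y : GL (Fin 4) F} (hx : x ^ 5 = 1) (hy : y ^ 5 = 1) (hx1 : x ≠ 1) (hy1 : y ≠ 1) :
    ∃ g ∈ Cfsg.Geo.specialLinear (Fin 4) F, g⁻¹ * x * g = y := by
  haveI : Fact (Nat.Prime 5) := ⟨by norm_num⟩
  have hp5 : p.Coprime 5 := by
    refine (Nat.coprime_primes Fact.out (by norm_num)).2 fun h => ?_
    rw [h, show ((5 : ℕ) : ZMod 5) = 0 from ZMod.natCast_self 5] at h5
    rw [orderOf_eq_zero (fun hf => by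
      obtain ⟨n, hn, h1⟩ := isOfFinOrder_iff_pow_eq_one.1 hf
      rw [zero_pow (by omega)] at h1
      exact zero_ne_one h1)] at h5
    omega
  have hirr : Irreducible (Polynomial.cyclotomic 5 F) := by
    refine Polynomial.irreducible_of_dvd_cyclotomic_of_natDegree (p := p) (f := 1) (n := 5)
      (by rw [hF, pow_one]) hp5 dvd_rfl ?_
    rw [Polynomial.natDegree_cyclotomic, Nat.totient_prime (by norm_num)]
    rw [← orderOf_units, ZMod.coe_unitOfCoprime, pow_one, h5]
  haveI := Fact.mk hirr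
  set Φ := Polynomial.cyclotomic 5 F with hΦ
  have hdeg : Φ.natDegree = 4 := by rw [hΦ, Polynomial.natDegree_cyclotomic, Nat.totient_prime (by norm_num)]
  have main : ∀ z : GL (Fin 4) F, z ^ 5 = 1 → z ≠ 1 → ∃ L : AdjoinRoot Φ ≃ₗ[F] V4,
      ∀ a, L (AdjoinRoot.root Φ * a) = (z : M4) *ᵥ L a := by
    intro z hz hz1
    set M := (z : M4)
    obtain ⟨u, hu⟩ : ∃ u, M *ᵥ u ≠ u := by
      by_contra h
      push Not at h
      exact hz1 (Units.ext (Matrix.ext_iff_mulVec.2 fun u => by rw [h, Units.val_one, Matrix.one_mulVec]))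
    set w := M *ᵥ u - u with hw
    have hw0 : w ≠ 0 := sub_ne_zero.2 hu
    have hΦw : (Polynomial.aeval M Φ) *ᵥ w = 0 := by
      have h1 : Φ * (Polynomial.X - 1) = Polynomial.X ^ 5 - 1 := Polynomial.cyclotomic_prime_mul_X_sub_one F 5
      have h3 := congrArg (Polynomial.aeval M) h1
      rw [map_mul, map_sub, map_sub, Polynomial.aeval_X, map_one, map_pow, Polynomial.aeval_X] at h3
      have : (M ^ 5 : M4) = 1 := by rw [← Units.val_pow_eq_pow_val, hz, Units.val_one]
      rw [this, sub_self] at h3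
      rw [hw, show M *ᵥ u - u = (M - 1) *ᵥ u by rw [Matrix.sub_mulVec, Matrix.one_mulVec], Matrix.mulVec_mulVec, h3,
        Matrix.zero_mulVec]
    -- every vector is killed
    let ev : Polynomial F →ₗ[F] V4 :=
      { toFun := fun f => (Polynomial.aeval M f) *ᵥ w
        map_add' := fun f g => by rw [map_add, Matrix.add_mulVec]
        map_smul' := fun c f => by rw [map_smul, Matrix.smul_mulVec]; rfl }
    have hann : ∀ f : Polynomial F, ev f = 0 → Φ ∣ f := by
      intro f hf
      by_contra hnd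
      obtain ⟨a, b, hab⟩ := (hirr.coprime_iff_not_dvd.2 hnd)
      apply hw0
      have := congrArg (fun g : Polynomial F => (Polynomial.aeval M g) *ᵥ w) hab
      simp only [map_add, map_mul, map_one, Matrix.add_mulVec, ← Matrix.mulVec_mulVec, Matrix.one_mulVec] at this
      rw [hΦw, show (Polynomial.aeval M f) *ᵥ w = 0 from hf, Matrix.mulVec_zero, Matrix.mulVec_zero, zero_add] at this
      exact this.symm
    have hli : LinearIndependent F fun k : Fin 4 => ev (Polynomial.X ^ (k : ℕ)) := by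
      rw [Fintype.linearIndependent_iff]
      intro c hc
      have hd := hann (∑ k : Fin 4, c k • Polynomial.X ^ (k : ℕ)) (by rw [map_sum]; simpa only [map_smul] using hc)
      have h0 : (∑ k : Fin 4, c k • Polynomial.X ^ (k : ℕ) : Polynomial F) = 0 := by
        refine Polynomial.eq_zero_of_dvd_of_natDegree_lt hd ?_
        rw [hdeg]
        refine Nat.lt_succ_of_le (Polynomial.natDegree_sum_le_of_forall_le _ _ fun k _ => ?_)
        exact (Polynomial.natDegree_smul_le _ _).trans (by rw [Polynomial.natDegree_X_pow]; omega)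
      intro k
      have := congrArg (fun f => Polynomial.coeff f (k : ℕ)) h0
      simpa [Polynomial.coeff_X_pow, Fin.val_inj] using this
    have hall : Polynomial.aeval M Φ = 0 := by
      refine Matrix.ext_iff_mulVec.2 fun v => ?_
      have hv : v ∈ Submodule.span F (Set.range fun k : Fin 4 => ev (Polynomial.X ^ (k : ℕ))) := by
        rw [hli.span_eq_top_of_card_eq_finrank (by simp)]; trivial
      rw [Matrix.zero_mulVec]
      induction hv using Submodule.span_induction with
      | mem x hx =>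
        obtain ⟨k, rfl⟩ := hx
        show (Polynomial.aeval M Φ) *ᵥ ((Polynomial.aeval M (Polynomial.X ^ (k : ℕ))) *ᵥ w) = 0
        rw [Matrix.mulVec_mulVec, ← map_mul, mul_comm, map_mul, ← Matrix.mulVec_mulVec, hΦw, Matrix.mulVec_zero]
      | zero => exact Matrix.mulVec_zero _
      | add a b _ _ ha hb => rw [Matrix.mulVec_add, ha, hb, add_zero]
      | smul c a _ ha => rw [Matrix.mulVec_smul, ha, smul_zero]
    let φ : AdjoinRoot Φ →ₐ[F] M4 := Ideal.Quotient.liftₐ (Ideal.span {Φ}) (Polynomial.aeval M) (fun g hg => by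
      obtain ⟨c, rfl⟩ := Ideal.mem_span_singleton.1 hg
      rw [map_mul, hall, zero_mul])
    let L : AdjoinRoot Φ →ₗ[F] V4 :=
      { toFun := fun a => φ a *ᵥ w
        map_add' := fun a b => by rw [map_add, Matrix.add_mulVec]
        map_smul' := fun c a => by rw [map_smul, Matrix.smul_mulVec]; rfl }
    have hfr : finrank F (AdjoinRoot Φ) = finrank F V4 := by
      rw [(AdjoinRoot.powerBasis hirr.ne_zero).finrank, AdjoinRoot.powerBasis_dim, hdeg, Module.finrank_fin_fun]
    have hinj : Function.Injective L := (injective_iff_map_eq_zero L).2 fun a ha => by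
      by_contra h0
      apply hw0
      have : φ a⁻¹ *ᵥ (φ a *ᵥ w) = φ a⁻¹ *ᵥ 0 := congrArg _ ha
      rwa [Matrix.mulVec_mulVec, ← map_mul, inv_mul_cancel₀ h0, map_one, Matrix.one_mulVec, Matrix.mulVec_zero] at this
    haveI : FiniteDimensional F (AdjoinRoot Φ) := (AdjoinRoot.powerBasis hirr.ne_zero).finite
    refine ⟨L.linearEquivOfInjective hinj hfr, fun a => ?_⟩
    rw [LinearMap.linearEquivOfInjective_apply, LinearMap.linearEquivOfInjective_apply]
    show φ (AdjoinRoot.root Φ * a) *ᵥ w = M *ᵥ (φ a *ᵥ w)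
    rw [map_mul, ← Matrix.mulVec_mulVec, show φ (AdjoinRoot.root Φ) = M from Polynomial.aeval_X M]
  obtain ⟨Lx, hLx⟩ := main x hx hx1
  obtain ⟨Ly, hLy⟩ := main y hy hy1
  haveI : FiniteDimensional F (AdjoinRoot Φ) := (AdjoinRoot.powerBasis hirr.ne_zero).finite
  haveI : Finite (AdjoinRoot Φ) := Module.finite_of_finite F
  let f₀ : V4 ≃ₗ[F] V4 := Ly.symm.trans Lx
  obtain ⟨a, ha⟩ := FiniteField.norm_surjective F (AdjoinRoot Φ) ((LinearEquiv.det f₀ : Fˣ)⁻¹ : Fˣ)
  have ha0 : a ≠ 0 := fun h => by rw [h, Algebra.norm_zero] at ha; exact Units.ne_zero _ ha.symm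
  let f : V4 →ₗ[F] V4 := (f₀ : V4 →ₗ[F] V4) ∘ₗ
    ((Ly : AdjoinRoot Φ →ₗ[F] V4) ∘ₗ Algebra.lmul F (AdjoinRoot Φ) a ∘ₗ (Ly.symm : V4 →ₗ[F] AdjoinRoot Φ))
  have hdet : LinearMap.det f = 1 := by
    rw [show f = (f₀ : V4 →ₗ[F] V4) * ((Ly : AdjoinRoot Φ →ₗ[F] V4) ∘ₗ Algebra.lmul F (AdjoinRoot Φ) a ∘ₗ
      (Ly.symm : V4 →ₗ[F] AdjoinRoot Φ)) from rfl, map_mul, LinearMap.det_conj, ← Algebra.norm_apply, ha,
      ← LinearEquiv.coe_det, ← Units.val_mul, mul_inv_cancel, Units.val_one]
  have hfM : LinearMap.det f = (LinearMap.toMatrix' f).det := (LinearMap.det_toMatrix' f).symm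
  let g : GL (Fin 4) F := Matrix.GeneralLinearGroup.mkOfDetNeZero (LinearMap.toMatrix' f)
    (by rw [← hfM, hdet]; exact one_ne_zero)
  refine ⟨g, Units.ext (by show (LinearMap.toMatrix' f).det = 1; rw [← hfM, hdet]), ?_⟩
  rw [mul_assoc, inv_mul_eq_iff_eq_mul]
  refine Units.ext (Matrix.ext_iff_mulVec.2 fun v => ?_)
  rw [Units.val_mul, Units.val_mul, ← Matrix.mulVec_mulVec, ← Matrix.mulVec_mulVec]
  show (x : M4) *ᵥ ((LinearMap.toMatrix' f) *ᵥ v) = (LinearMap.toMatrix' f) *ᵥ ((y : M4) *ᵥ v)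
  rw [LinearMap.toMatrix'_mulVec, LinearMap.toMatrix'_mulVec]
  obtain ⟨b, rfl⟩ := Ly.surjective v
  rw [← hLy]
  simp only [f, f₀, LinearMap.comp_apply, LinearEquiv.coe_coe, LinearEquiv.symm_apply_apply, LinearEquiv.trans_apply,
    Algebra.lmul, AlgHom.coe_mk, LinearMap.mul_apply']
  rw [← hLx]
  congr 1
  first | (show AdjoinRoot.root Φ * (a * b) = a * (AdjoinRoot.root Φ * b); ring) | ring

end CfsgLib.HeisFour
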