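import Cfsg.Agent.HeisFour.Frame

/-!
Elements normalising the standard group of symplectic type of order `2 ^ 6`.
-/

set_option autoImplicit false

namespace CfsgLib.HeisFour

open Matrix Subgroup

/-- Twice an element of order five. -/
def y5 : GM := !![⟨-1, -1⟩, ⟨-1, 1⟩, 0, 0; 0, 0, ⟨-1, -1⟩, ⟨1, -1⟩;
  ⟨-1, -1⟩, ⟨1, -1⟩, 0, 0; 0, 0, ⟨-1, -1⟩, ⟨-1, 1⟩]
/-- Twice an element of order three without fixed points. -/
def y3 : GM := !![⟨-1, 1⟩, 0, ⟨1, 1⟩, 0; 0, ⟨-1, 1⟩, 0, ⟨1, 1⟩;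
  ⟨-1, 1⟩, 0, ⟨-1, -1⟩, 0; 0, ⟨-1, 1⟩, 0, ⟨-1, -1⟩]
/-- Twice an element of order three with fixed points. -/
def z3 : GM := !![⟨0, -1⟩, ⟨-1, 0⟩, ⟨-1, 0⟩, ⟨0, 1⟩; ⟨0, -1⟩, ⟨1, 0⟩, ⟨-1, 0⟩, ⟨0, -1⟩;
  ⟨0, -1⟩, ⟨-1, 0⟩, ⟨1, 0⟩, ⟨0, -1⟩; ⟨0, -1⟩, ⟨1, 0⟩, ⟨1, 0⟩, ⟨0, 1⟩]

theorem y5_pow : y5 * y5 * (y5 * y5) * y5 = (32 : GaussianInt) • 1 := by decide +kernel
theorem y3_pow : y3 * y3 * y3 = (8 : GaussianInt) • 1 := by decide +kernel
theorem z3_pow : z3 * z3 * z3 = (8 : GaussianInt) • 1 := by decide +kernel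
theorem y5_tr : y5.trace = -2 := by decide +kernel
theorem y3_tr : y3.trace = -4 := by decide +kernel
theorem z3_tr : z3.trace = 2 := by decide +kernel

theorem y5_A : y5 * gA = gC * y5 := by decide +kernel
theorem y5_B : y5 * gB = gB * gD * y5 := by decide +kernel
theorem y5_C : y5 * gC = gB * y5 := by decide +kernel
theorem y5_D : y5 * gD = (gI * gI * gI) • (gA * gB * gC) * y5 := by decide +kernel
theorem y3_A : y3 * gA = gB * y3 := by decide +kernel
theorem y3_B : y3 * gB = (gI * gI * gI) • (gA * gB) * y3 := by decide +kernel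
theorem y3_C : y3 * gC = gC * y3 := by decide +kernel
theorem y3_D : y3 * gD = gD * y3 := by decide +kernel
theorem z3_A : z3 * gA = gB * z3 := by decide +kernel
theorem z3_B : z3 * gB = (gI * gI * gI) • (gA * gB) * z3 := by decide +kernel
theorem z3_C : z3 * gC = gD * z3 := by decide +kernel
theorem z3_D : z3 * gD = (gI * gI * gI) • (gC * gD) * z3 := by decide +kernel

variable {F : Type*} [Field F] [Fintype F]

local notation "M4" => Matrix (Fin 4) (Fin 4) F

variable {R : Subgroup (GL (Fin 4) F)} (H : Frame R)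

/-- The matrices of elements of the conjugated group. -/
def Good (M : M4) : Prop := ∃ v : GL (Fin 4) F, (v : M4) = M ∧ H.g * v * H.g⁻¹ ∈ R

theorem good_mul {M N : M4} (hM : Good H M) (hN : Good H N) : Good H (M * N) := by
  obtain ⟨v, rfl, hv⟩ := hM
  obtain ⟨w, rfl, hw⟩ := hN
  exact ⟨v * w, Units.val_mul v w, by rw [← conj_mul]; exact R.mul_mem hv hw⟩

theorem good_gA : Good H (img H.i H.hi gA) := ⟨_, invU_val H.i H.hi gA_sq, H.hA⟩
theorem good_gB : Good H (img H.i H.hi gB) := ⟨_, invU_val H.i H.hi gB_sq, H.hB⟩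
theorem good_gC : Good H (img H.i H.hi gC) := ⟨_, invU_val H.i H.hi gC_sq, H.hC⟩
theorem good_gD : Good H (img H.i H.hi gD) := ⟨_, invU_val H.i H.hi gD_sq, H.hD⟩

theorem good_smul {c : F} (hc : c ^ 4 = 1) {M : M4} (hM : Good H M) : Good H (c • M) := by
  obtain ⟨v, rfl, hv⟩ := hM
  have hc0 : c ≠ 0 := fun h => by rw [h, zero_pow (by norm_num)] at hc; exact zero_ne_one hc
  refine ⟨Sc (Units.mk0 c hc0) * v, by rw [Units.val_mul, Sc_val, Units.val_mk0, Matrix.smul_mul, one_mul], ?_⟩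
  rw [← conj_mul, show H.g * Sc (Units.mk0 c hc0) * H.g⁻¹ = Sc (Units.mk0 c hc0) by
    rw [Sc_comm, mul_inv_cancel_right]]
  exact R.mul_mem (H.scal _ (Units.ext (by simpa using hc))) hv

/-- A criterion for normalising. -/
theorem normalizes {y : GL (Fin 4) F} (hA : ∃ M, Good H M ∧ (y : M4) * img H.i H.hi gA = M * y)
    (hB : ∃ M, Good H M ∧ (y : M4) * img H.i H.hi gB = M * y)
    (hC : ∃ M, Good H M ∧ (y : M4) * img H.i H.hi gC = M * y)
    (hD : ∃ M, Good H M ∧ (y : M4) * img H.i H.hi gD = M * y) (hfin : Finite R) :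
    H.g * y * H.g⁻¹ ∈ Cfsg.Geo.subgroupNormalizer R := by
  set n := H.g * y * H.g⁻¹ with hn
  have key : ∀ {X : GM} (hX : X * X = 1), (∃ M, Good H M ∧ (y : M4) * img H.i H.hi X = M * y) →
      n * (H.g * invU H.i H.hi hX * H.g⁻¹) * n⁻¹ ∈ R := by
    intro X hX h
    obtain ⟨M, ⟨v, hv, hvR⟩, h⟩ := h
    have h1 : y * invU H.i H.hi hX = v * y := Units.ext (by
      rw [Units.val_mul, Units.val_mul, invU_val, hv, h])
    have h3 : v = y * invU H.i H.hi hX * y⁻¹ := by rw [h1, mul_inv_cancel_right]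
    rw [h3] at hvR
    convert hvR using 1
    rw [hn]; group
  have hsub : ∀ r ∈ R, n * r * n⁻¹ ∈ R := by
    intro r hr
    have hle : R ≤ R.comap (MulAut.conj n).toMonoidHom := H.gen.trans ((Subgroup.closure_le _).2 (by
      rintro x ((rfl | rfl | rfl | rfl) | ⟨c, hc, rfl⟩)
      · exact key gA_sq hA
      · exact key gB_sq hB
      · exact key gC_sq hC
      · exact key gD_sq hD
      · show n * Sc c * n⁻¹ ∈ R
        rw [Sc_comm, mul_inv_cancel_right]
        exact H.scal c hc))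
    exact hle hr
  show n ∈ Subgroup.normalizer (R : Set (GL (Fin 4) F))
  refine Subgroup.mem_normalizer_iff.2 fun r => ⟨fun hr => hsub r hr, fun hr => ?_⟩
  let f : R → R := fun t => ⟨n * t * n⁻¹, hsub t t.2⟩
  have hf : Function.Injective f := fun s t h =>
    Subtype.ext (mul_left_cancel (mul_right_cancel (congrArg Subtype.val h)))
  obtain ⟨⟨t, ht⟩, hft⟩ := (Finite.injective_iff_surjective.1 hf) ⟨n * r * n⁻¹, hr⟩
  rwa [← mul_left_cancel (mul_right_cancel (congrArg Subtype.val hft : n * t * n⁻¹ = n * r * n⁻¹))]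

theorem gI_img_pow : (toF H.i H.hi (gI * gI * gI)) ^ 4 = 1 := by
  rw [map_mul, map_mul, toF_gI]
  linear_combination (H.i * H.i - 1) * ((H.i * H.i) ^ 4 + (H.i * H.i) ^ 2 + 1) * H.hi

theorem img_smul (c : GaussianInt) (M : GM) : img H.i H.hi (c • M) = toF H.i H.hi c • img H.i H.hi M := by
  ext r k
  simp [img]

theorem img_trace (M : GM) : (img H.i H.hi M).trace = toF H.i H.hi M.trace := by
  simp [Matrix.trace, img, map_sum]

theorem img_scalar (c : GaussianInt) : img H.i H.hi (c • 1) = toF H.i H.hi c • (1 : M4) := by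
  rw [img_smul, map_one]

/-- Scaling an integral matrix. -/
theorem normalizes_img {Y : GM} {s : F} {y : GL (Fin 4) F} (hy : (y : M4) = s • img H.i H.hi Y)
    {VA VB VC VD : GM} (gA' : Good H (img H.i H.hi VA)) (gB' : Good H (img H.i H.hi VB))
    (gC' : Good H (img H.i H.hi VC)) (gD' : Good H (img H.i H.hi VD))
    (hA : Y * gA = VA * Y) (hB : Y * gB = VB * Y) (hC : Y * gC = VC * Y) (hD : Y * gD = VD * Y) (hfin : Finite R) :
    H.g * y * H.g⁻¹ ∈ Cfsg.Geo.subgroupNormalizer R := by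
  have key : ∀ {X V : GM}, Y * X = V * Y → (y : M4) * img H.i H.hi X = img H.i H.hi V * y := fun h => by
    rw [hy, Matrix.smul_mul, Matrix.mul_smul, ← map_mul, ← map_mul, h]
  exact normalizes H ⟨_, gA', key hA⟩ ⟨_, gB', key hB⟩ ⟨_, gC', key hC⟩ ⟨_, gD', key hD⟩ hfin

/-- The element of order five. -/
theorem exists_five (h2 : (2 : F) ≠ 0) (hfin : Finite R) :
    ∃ y : GL (Fin 4) F, y ^ 5 = 1 ∧ (y : M4).trace = -1 ∧ H.g * y * H.g⁻¹ ∈ Cfsg.Geo.subgroupNormalizer R ∧
      (y : M4) = (2 : F)⁻¹ • img H.i H.hi y5 := by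
  let M : M4 := (2 : F)⁻¹ • img H.i H.hi y5
  have hM : M * M * (M * M) * M = 1 := by
    simp only [M, Matrix.smul_mul, Matrix.mul_smul, smul_smul, ← map_mul, y5_pow]
    rw [img_scalar H, map_ofNat, smul_smul]
    convert one_smul F (1 : M4)
    field_simp
    norm_num
  have hM' : M * (M * M * (M * M)) = 1 := by rw [← hM]; noncomm_ring
  let y : GL (Fin 4) F := ⟨M, M * M * (M * M), hM', hM⟩
  refine ⟨y, Units.ext ?_, ?_, ?_, rfl⟩
  · show ((y ^ 5 : GL (Fin 4) F) : M4) = 1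
    rw [Units.val_pow_eq_pow_val, ← hM]
    simp only [y, pow_succ, pow_zero, one_mul, mul_assoc]
  · show M.trace = -1
    have h : (img H.i H.hi y5).trace = -2 := by
      rw [img_trace H, y5_tr, map_neg, map_ofNat]
    rw [Matrix.trace_smul, h, smul_eq_mul]
    field_simp
  · refine normalizes_img H (Y := y5) (s := (2 : F)⁻¹) rfl (good_gC H) ?_ (good_gB H) ?_ y5_A y5_B y5_C y5_D hfin
    · rw [map_mul]; exact good_mul H (good_gB H) (good_gD H)
    · rw [img_smul, map_mul (img H.i H.hi) (gA * gB), map_mul (img H.i H.hi) gA]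
      exact good_smul H (gI_img_pow H) (good_mul H (good_mul H (good_gA H) (good_gB H)) (good_gC H))

/-- The elements of order three. -/
theorem exists_three (h2 : (2 : F) ≠ 0) (hfin : Finite R) :
    (∃ y : GL (Fin 4) F, y ^ 3 = 1 ∧ (y : M4).trace = -2 ∧ H.g * y * H.g⁻¹ ∈ Cfsg.Geo.subgroupNormalizer R ∧
      (y : M4) = (2 : F)⁻¹ • img H.i H.hi y3) ∧
    (∃ y : GL (Fin 4) F, y ^ 3 = 1 ∧ (y : M4).trace = 1 ∧ H.g * y * H.g⁻¹ ∈ Cfsg.Geo.subgroupNormalizer R ∧
      (y : M4) = (2 : F)⁻¹ • img H.i H.hi z3) := by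
  have mk : ∀ (Y : GM) (t : GaussianInt) (τ : F), Y * Y * Y = (8 : GaussianInt) • 1 → Y.trace = t →
      toF H.i H.hi t = 2 * τ → ∃ y : GL (Fin 4) F, y ^ 3 = 1 ∧ (y : M4).trace = τ ∧
        (y : M4) = (2 : F)⁻¹ • img H.i H.hi Y := by
    intro Y t τ hY ht hτ
    let M : M4 := (2 : F)⁻¹ • img H.i H.hi Y
    have hM : M * M * M = 1 := by
      simp only [M, Matrix.smul_mul, Matrix.mul_smul, smul_smul, ← map_mul, hY]
      rw [img_scalar H, map_ofNat, smul_smul]
      convert one_smul F (1 : M4)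
      field_simp
      norm_num
    refine ⟨⟨M, M * M, by rw [← mul_assoc]; exact hM, hM⟩, Units.ext ?_, ?_, rfl⟩
    · rw [Units.val_pow_eq_pow_val, Units.val_one]
      show M ^ 3 = 1
      rw [pow_succ, pow_succ, pow_one, hM]
    · show M.trace = τ
      rw [Matrix.trace_smul, img_trace H, ht, hτ, smul_eq_mul]
      field_simp
  constructor
  · obtain ⟨y, h1, h3, h4⟩ := mk y3 (-4) (-2) y3_pow y3_tr (by rw [map_neg, map_ofNat]; norm_num)
    refine ⟨y, h1, h3, normalizes_img H h4 (good_gB H) ?_ (good_gC H) (good_gD H) y3_A y3_B y3_C y3_D hfin, h4⟩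
    rw [img_smul, map_mul (img H.i H.hi)]
    exact good_smul H (gI_img_pow H) (good_mul H (good_gA H) (good_gB H))
  · obtain ⟨y, h1, h3, h4⟩ := mk z3 2 1 z3_pow z3_tr (by rw [map_ofNat, mul_one])
    refine ⟨y, h1, h3, normalizes_img H h4 (good_gB H) ?_ (good_gD H) ?_ z3_A z3_B z3_C z3_D hfin, h4⟩
    · rw [img_smul, map_mul (img H.i H.hi)]
      exact good_smul H (gI_img_pow H) (good_mul H (good_gA H) (good_gB H))
    · rw [img_smul, map_mul (img H.i H.hi)]
      exact good_smul H (gI_img_pow H) (good_mul H (good_gC H) (good_gD H))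

/-- Diagonal sign matrices, up to scalars, normalise. -/
theorem diag_normalizes (h2 : (2 : F) ≠ 0) {y : GL (Fin 4) F} {a : F} (ha : a ≠ 0) {d : Fin 4 → F}
    (hd : ∀ k, d k = 1 ∨ d k = -1) (hy : (y : M4) = a • Matrix.diagonal d) (hfin : Finite R) :
    H.g * y * H.g⁻¹ ∈ Cfsg.Geo.subgroupNormalizer R := by
  have hone : Good H 1 := ⟨1, Units.val_one, by rw [mul_one, mul_inv_cancel]; exact R.one_mem⟩
  have hmin : Good H (-1) := by
    have := good_smul H (c := (-1 : F)) (by norm_num) hone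
    simpa using this
  have hdA : img H.i H.hi gA = Matrix.diagonal ![1, 1, -1, -1] := by
    ext r k; fin_cases r <;> fin_cases k <;> simp [img, gA]
  have hdC : img H.i H.hi gC = Matrix.diagonal ![1, -1, 1, -1] := by
    ext r k; fin_cases r <;> fin_cases k <;> simp [img, gC]
  have goodA : ∀ e f : F, (e = 1 ∨ e = -1) → (f = 1 ∨ f = -1) → Good H (Matrix.diagonal ![e, e, f, f]) := by
    intro e f he hf
    rcases he with rfl | rfl <;> rcases hf with rfl | rfl
    · convert hone using 1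
      ext r k; fin_cases r <;> fin_cases k <;> simp
    · rw [← hdA]; exact good_gA H
    · convert good_smul H (c := (-1 : F)) (by norm_num) (good_gA H) using 1
      rw [hdA]
      ext r k; fin_cases r <;> fin_cases k <;> simp
    · convert hmin using 1
      ext r k; fin_cases r <;> fin_cases k <;> simp
  have goodC : ∀ e f : F, (e = 1 ∨ e = -1) → (f = 1 ∨ f = -1) → Good H (Matrix.diagonal ![e, f, e, f]) := by
    intro e f he hf
    rcases he with rfl | rfl <;> rcases hf with rfl | rfl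
    · convert hone using 1
      ext r k; fin_cases r <;> fin_cases k <;> simp
    · rw [← hdC]; exact good_gC H
    · convert good_smul H (c := (-1 : F)) (by norm_num) (good_gC H) using 1
      rw [hdC]
      ext r k; fin_cases r <;> fin_cases k <;> simp
    · convert hmin using 1
      ext r k; fin_cases r <;> fin_cases k <;> simp
  have hmul : ∀ r k, d r * d k = 1 ∨ d r * d k = -1 := fun r k => by
    rcases hd r with h | h <;> rcases hd k with h' | h' <;> simp [h, h']
  have hsq : ∀ r, d r * d r = 1 := fun r => by rcases hd r with h | h <;> simp [h]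
  refine normalizes H ⟨_, good_gA H, ?_⟩ ⟨_, good_mul H (goodC _ _ (hmul 0 2) (hmul 1 3)) (good_gB H), ?_⟩
    ⟨_, good_gC H, ?_⟩ ⟨_, good_mul H (goodA _ _ (hmul 0 1) (hmul 2 3)) (good_gD H), ?_⟩ hfin
  · rw [hy, hdA, Matrix.smul_mul, Matrix.mul_smul, Matrix.diagonal_mul_diagonal, Matrix.diagonal_mul_diagonal]
    congr 2; funext r; exact mul_comm _ _
  · rw [hy, Matrix.smul_mul, Matrix.mul_smul, mul_assoc]
    congr 1
    ext r k
    rw [Matrix.diagonal_mul, Matrix.diagonal_mul, Matrix.mul_diagonal]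
    have q0 := hsq 0; have q1 := hsq 1; have q2 := hsq 2; have q3 := hsq 3
    fin_cases r <;> fin_cases k <;> simp [img, gB] <;> grind
  · rw [hy, hdC, Matrix.smul_mul, Matrix.mul_smul, Matrix.diagonal_mul_diagonal, Matrix.diagonal_mul_diagonal]
    congr 2; funext r; exact mul_comm _ _
  · rw [hy, Matrix.smul_mul, Matrix.mul_smul, mul_assoc]
    congr 1
    ext r k
    rw [Matrix.diagonal_mul, Matrix.diagonal_mul, Matrix.mul_diagonal]
    have q0 := hsq 0; have q1 := hsq 1; have q2 := hsq 2; have q3 := hsq 3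
    fin_cases r <;> fin_cases k <;> simp [img, gD] <;> grind

end CfsgLib.HeisFour
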