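import Mathlib
import Cfsg.Prelude.Def_GeometricClasses

/-!
Basic facts on a group of symplectic type of order `2 ^ 6` in `GL_4`.
-/

set_option autoImplicit false

namespace CfsgLib.HeisFour

open Matrix Subgroup
open scoped commutatorElement

/-- A `2`-group with centre of order 4, exponent 4 and all characteristic abelian subgroups cyclic has class two. -/
theorem class_two {G : Type*} [Group G] [Finite G] (hp : IsPGroup 2 G) (hexp : Monoid.exponent G = 4)
    (hcyc : ∀ A : Subgroup G, A.Characteristic → IsMulCommutative A → IsCyclic A)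
    (hZ : Nat.card (center G) = 4) :
    (∀ u v : G, ⁅u, v⁆ ∈ center G) ∧ (∀ u : G, u ^ 2 ∈ center G ∨ ∃ a b : G, ⁅a, b⁆ ^ 4 ≠ 1) := by
  -- characteristic abelian subgroups are central
  have hab : ∀ A : Subgroup G, A.Characteristic → (∀ a ∈ A, ∀ b ∈ A, a * b = b * a) → A ≤ center G := by
    intro A hA hcomm
    have hchar : (A ⊔ center G).Characteristic := characteristic_iff_map_eq.2 fun φ => by
      rw [Subgroup.map_sup, characteristic_iff_map_eq.1 hA φ,
        characteristic_iff_map_eq.1 (inferInstance : (center G).Characteristic) φ]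
    have hc : IsMulCommutative (A ⊔ center G : Subgroup G) := by
      refine ⟨⟨fun x y => Subtype.ext ?_⟩⟩
      obtain ⟨a, ha, z, hz, hx⟩ := mem_sup_of_normal_right.1 x.2
      obtain ⟨b, hb, w, hw, hy⟩ := mem_sup_of_normal_right.1 y.2
      show (x : G) * y = y * x
      rw [← hx, ← hy]
      have h1 : ∀ g, g * z = z * g := mem_center_iff.1 hz
      have h2 : ∀ g, g * w = w * g := mem_center_iff.1 hw
      calc a * z * (b * w) = (a * b) * (z * w) := by rw [mul_assoc a z, ← mul_assoc z b, ← h1 b]; group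
        _ = (b * a) * (w * z) := by rw [hcomm a ha b hb, h2 z]
        _ = b * w * (a * z) := by rw [mul_assoc b w, ← mul_assoc w a, ← h2 a]; group
    haveI := hcyc _ hchar hc
    have h4 : Nat.card (A ⊔ center G : Subgroup G) ∣ 4 := by
      rw [← IsCyclic.exponent_eq_card, ← hexp]
      exact Monoid.exponent_dvd_of_monoidHom (A ⊔ center G).subtype (Subgroup.subtype_injective _)
    have hle : Nat.card (A ⊔ center G : Subgroup G) ≤ Nat.card (center G) := hZ ▸ Nat.le_of_dvd (by norm_num) h4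
    have h := Subgroup.eq_of_le_of_card_ge (le_sup_right : center G ≤ A ⊔ center G) hle
    rw [h]
    exact le_sup_left
  have hcom : ∀ u v : G, ⁅u, v⁆ ∈ center G := by
    haveI : Group.IsNilpotent G := hp.isNilpotent
    obtain ⟨n, hn⟩ := Subgroup.nilpotent_iff_lowerCentralSeries.1 (inferInstance : Group.IsNilpotent G)
    classical
    have hex : ∃ m, (⊤ : Subgroup G).lowerCentralSeries (m + 1) ≤ center G :=
      ⟨n, le_trans (Subgroup.lowerCentralSeries_antitone _ (Nat.le_succ n)) (by rw [hn]; exact bot_le)⟩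
    intro u v
    rcases Nat.eq_zero_or_pos (Nat.find hex) with h0 | hpos
    · have h := Nat.find_spec hex
      rw [h0] at h
      refine h ?_
      rw [zero_add, Subgroup.top_lowerCentralSeries_one]
      exact Subgroup.commutator_mem_commutator (mem_top u) (mem_top v)
    · exfalso
      set k := Nat.find hex with hk
      have hkk : (⊤ : Subgroup G).lowerCentralSeries (k + 1) ≤ center G := Nat.find_spec hex
      have hle1 : (⊤ : Subgroup G).lowerCentralSeries k ≤ commutator G := by
        rw [← Subgroup.top_lowerCentralSeries_one]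
        exact Subgroup.lowerCentralSeries_antitone _ hpos
      have hfix : ∀ w ∈ (⊤ : Subgroup G).lowerCentralSeries k, commutator G ≤ centralizer {w} := by
        intro w hw
        rw [_root_.commutator_def, Subgroup.commutator_le]
        intro a _ b _
        rw [mem_centralizer_singleton_iff]
        have hz : ∀ g, ⁅w, g⁆ ∈ center G := fun g => hkk (by
          rw [Subgroup.lowerCentralSeries_succ]
          exact Subgroup.commutator_mem_commutator hw (mem_top g))
        have e : ∀ z g h : G, z ∈ center G → ⁅z * g, h⁆ = ⁅g, h⁆ := fun z g h hz => by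
          rw [mem_center_iff] at hz
          calc ⁅z * g, h⁆ = (z * (g * h * g⁻¹)) * z⁻¹ * h⁻¹ := by rw [commutatorElement_def]; group
            _ = ((g * h * g⁻¹) * z) * z⁻¹ * h⁻¹ := by rw [← hz (g * h * g⁻¹)]
            _ = ⁅g, h⁆ := by rw [commutatorElement_def]; group
        have e2 : ∀ z g h : G, z ∈ center G → ⁅g, z * h⁆ = ⁅g, h⁆ := fun z g h hz => by
          rw [← commutatorElement_inv (z * h) g, e z h g hz, commutatorElement_inv]
        have hconj : w * ⁅a, b⁆ * w⁻¹ = ⁅a, b⁆ := by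
          rw [conjugate_commutatorElement, show w * a * w⁻¹ = ⁅w, a⁆ * a by rw [commutatorElement_def]; group,
            show w * b * w⁻¹ = ⁅w, b⁆ * b by rw [commutatorElement_def]; group, e _ _ _ (hz a), e2 _ _ _ (hz b)]
        exact (mul_inv_eq_iff_eq_mul.1 hconj).symm
      have hcen := hab _ inferInstance fun a ha b hb =>
        (mem_centralizer_singleton_iff.1 (hfix b hb (hle1 ha)))
      exact Nat.find_min hex (show k - 1 < k by omega) (by rwa [Nat.sub_add_cancel hpos])
  refine ⟨hcom, fun u => ?_⟩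
  by_contra hcon
  push Not at hcon
  obtain ⟨hu, h4⟩ := hcon
  -- the squares generate an abelian characteristic subgroup
  have hzc : ∀ a b c : G, ⁅a, b⁆ * c = c * ⁅a, b⁆ := fun a b c => (mem_center_iff.1 (hcom a b) c).symm
  have hmul : ∀ a b c : G, ⁅a * b, c⁆ = ⁅a, c⁆ * ⁅b, c⁆ := fun a b c => by
    calc ⁅a * b, c⁆ = a * ⁅b, c⁆ * a⁻¹ * ⁅a, c⁆ := by simp only [commutatorElement_def]; group
      _ = ⁅b, c⁆ * ⁅a, c⁆ := by rw [← hzc b c a, mul_inv_cancel_right]
      _ = _ := hzc b c _
  have hsq : ∀ a b : G, a ^ 2 * b ^ 2 = b ^ 2 * a ^ 2 := fun a b => by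
    have h1 : ⁅a ^ 2, b ^ 2⁆ = 1 := by
      have h2 : ∀ c d : G, ⁅c ^ 2, d⁆ = ⁅c, d⁆ ^ 2 := fun c d => by rw [sq, hmul, ← sq]
      rw [h2, ← commutatorElement_inv (b ^ 2) a, h2, inv_pow, ← pow_mul, h4, inv_one]
    exact commutatorElement_eq_one_iff_mul_comm.1 h1
  let A : Subgroup G := closure (Set.range fun g : G => g ^ 2)
  have hA : A.Characteristic := characteristic_iff_map_eq.2 fun φ => by
    rw [MonoidHom.map_closure]
    congr 1
    ext g
    constructor
    · rintro ⟨_, ⟨h, rfl⟩, rfl⟩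
      exact ⟨φ h, (map_pow φ h 2).symm⟩
    · rintro ⟨h, rfl⟩
      exact ⟨_, ⟨φ.symm h, rfl⟩, by simp⟩
  have hAc : ∀ a ∈ A, ∀ b ∈ A, a * b = b * a := by
    have h1 : A ≤ centralizer (Set.range fun g : G => g ^ 2) := by
      rw [closure_le]
      rintro _ ⟨a, rfl⟩
      rw [SetLike.mem_coe, mem_centralizer_iff]
      rintro _ ⟨b, rfl⟩
      exact hsq b a
    intro a ha b hb
    have h3 : A ≤ centralizer {a} := by
      rw [closure_le]
      rintro _ ⟨c, rfl⟩
      rw [SetLike.mem_coe, mem_centralizer_singleton_iff]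
      exact mem_centralizer_iff.1 (h1 ha) _ ⟨c, rfl⟩
    exact (mem_centralizer_singleton_iff.1 (h3 hb)).symm
  exact hu (hab A hA hAc (subset_closure ⟨u, rfl⟩))

variable {F : Type*} [Field F] [Fintype F]

local notation "M4" => Matrix (Fin 4) (Fin 4) F

/-- The scalar element. -/
def Sc (c : Fˣ) : GL (Fin 4) F := Units.map (Matrix.scalar (Fin 4) : F →+* M4).toMonoidHom c

theorem Sc_val (c : Fˣ) : ((Sc c : GL (Fin 4) F) : M4) = (c : F) • 1 := by
  simp [Sc, Matrix.smul_one_eq_diagonal]

theorem Sc_comm (c : Fˣ) (g : GL (Fin 4) F) : g * Sc c = Sc c * g := Units.ext (by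
  rw [Units.val_mul, Units.val_mul, Sc_val, Matrix.mul_smul, mul_one, Matrix.smul_mul, one_mul])

/-- The facts. -/
structure Facts (R : Subgroup (GL (Fin 4) F)) : Prop where
  card : Nat.card R = 2 ^ 6
  root : ∃ i : Fˣ, i ^ 2 = -1
  scal_mem : ∀ c : Fˣ, c ^ 4 = 1 → Sc c ∈ R
  scal : ∀ u ∈ R, (∀ v ∈ R, u * v = v * u) → ∃ c : Fˣ, c ^ 4 = 1 ∧ u = Sc c
  sign : ∀ u ∈ R, ∀ v ∈ R, v * u = u * v ∨ (v : M4) * (u : M4) = -((u : M4) * (v : M4))
  invol : ∀ u ∈ R, ∃ c : Fˣ, c ^ 4 = 1 ∧ (Sc c * u) * (Sc c * u) = 1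
  irred : ∀ M : M4, (∀ u ∈ R, M * (u : M4) = (u : M4) * M) → ∃ c : F, M = c • 1

theorem facts_of {R : Subgroup (GL (Fin 4) F)} (hs : Cfsg.Geo.IsSymplecticTypeGroup 2 R)
    (habs : Cfsg.Geo.ActsAbsolutelyIrreducibly (Cfsg.Geo.matrixSet R)) (hcentre : Nat.card (center R) = 4)
    (hR6 : Nat.card R = 2 ^ 6) : Facts R := by
  classical
  haveI : Finite R := Nat.finite_of_card_ne_zero (by rw [hR6]; norm_num)
  have hexp : Monoid.exponent R = 4 := hs.exponent_eq
  have hirr : ∀ M : M4, (∀ u ∈ R, M * (u : M4) = (u : M4) * M) → ∃ c : F, M = c • 1 := fun M hM =>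
    habs.2 M (by rintro _ ⟨u, hu, rfl⟩; exact hM u hu)
  have h4 : ∀ u ∈ R, u ^ 4 = 1 := fun u hu => by
    have h := Monoid.pow_exponent_eq_one (⟨u, hu⟩ : R)
    rw [hexp] at h
    exact congrArg Subtype.val h
  have hval : ∀ u ∈ R, (∀ v ∈ R, u * v = v * u) → ∃ c : Fˣ, c ^ 4 = 1 ∧ u = Sc c := by
    intro u hu hc
    obtain ⟨c, hcu⟩ := hirr u fun v hv => by rw [← Units.val_mul, hc v hv, Units.val_mul]
    have hc0 : c ≠ 0 := fun h => by
      have := u.isUnit
      rw [hcu, h, zero_smul] at this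
      exact not_isUnit_zero this
    refine ⟨Units.mk0 c hc0, Units.ext ?_, Units.ext (by rw [Sc_val, Units.val_mk0]; exact hcu)⟩
    have h := congrArg (fun g : GL (Fin 4) F => (g : M4) 0 0) (h4 u hu)
    simpa [hcu, smul_pow] using h
  have hcenR : ∀ z : R, z ∈ center R → ∀ v ∈ R, (z : GL (Fin 4) F) * v = v * z := fun z hz v hv =>
    (congrArg Subtype.val (mem_center_iff.1 hz ⟨v, hv⟩)).symm
  -- the centre gives all fourth roots of unity
  choose φ hφ4 hφ using fun z : center R => hval _ z.1.2 (hcenR _ z.2)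
  have hφinj : Function.Injective φ := fun z w h => by
    have h1 := hφ z
    rw [h, ← hφ w] at h1
    exact Subtype.ext (Subtype.ext h1)
  let T : Finset Fˣ := Finset.univ.filter fun c => c ^ 4 = 1
  haveI : Fintype (center R) := Fintype.ofFinite _
  have hTcard : T.card ≤ 4 := by
    have : T.card ≤ ((Polynomial.X ^ 4 - Polynomial.C (1 : F)).roots.toFinset).card := by
      refine Finset.card_le_card_of_injOn (fun c : Fˣ => (c : F)) (fun c hc => ?_) (fun a _ b _ h => Units.ext h)
      rw [Finset.mem_coe, Finset.mem_filter] at hc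
      rw [Finset.mem_coe, Multiset.mem_toFinset, Polynomial.mem_roots (Polynomial.X_pow_sub_C_ne_zero (by norm_num) _)]
      simp [← Units.val_pow_eq_pow_val, hc.2]
    refine this.trans ((Multiset.toFinset_card_le _).trans ((Polynomial.card_roots' _).trans ?_))
    rw [Polynomial.natDegree_X_pow_sub_C]
  have himg : Finset.univ.image φ = T := by
    refine Finset.eq_of_subset_of_card_le ?_ ?_
    · intro c hc
      obtain ⟨z, -, rfl⟩ := Finset.mem_image.1 hc
      exact Finset.mem_filter.2 ⟨Finset.mem_univ _, hφ4 z⟩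
    · rw [Finset.card_image_of_injective _ hφinj, Finset.card_univ, ← Nat.card_eq_fintype_card, hcentre]
      exact hTcard
  have hscal : ∀ c : Fˣ, c ^ 4 = 1 → Sc c ∈ R := fun c hc => by
    have : c ∈ Finset.univ.image φ := himg ▸ Finset.mem_filter.2 ⟨Finset.mem_univ _, hc⟩
    obtain ⟨z, -, rfl⟩ := Finset.mem_image.1 this
    rw [← hφ z]
    exact z.1.2
  have hroot : ∃ i : Fˣ, i ^ 2 = -1 := by
    by_contra hno
    push Not at hno
    have hsub : T ⊆ {1, -1} := fun c hc => by
      have h := (Finset.mem_filter.1 hc).2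
      have h1 : ((c : F) ^ 2 - 1) * ((c : F) ^ 2 + 1) = 0 := by
        have : (c : F) ^ 4 = 1 := by rw [← Units.val_pow_eq_pow_val, h, Units.val_one]
        linear_combination this
      rcases mul_eq_zero.1 h1 with h1 | h1
      · rcases mul_eq_zero.1 (show ((c : F) - 1) * ((c : F) + 1) = 0 by linear_combination h1) with h3 | h3
        · simp [Units.ext_iff, sub_eq_zero.1 h3]
        · simp [Units.ext_iff, eq_neg_of_add_eq_zero_left h3]
      · exact absurd (Units.ext (by push_cast; linear_combination h1)) (hno c)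
    have hle := Finset.card_le_card hsub
    rw [← himg, Finset.card_image_of_injective _ hφinj, Finset.card_univ, ← Nat.card_eq_fintype_card, hcentre] at hle
    exact absurd (hle.trans Finset.card_le_two) (by norm_num)
  have hp : IsPGroup 2 R := hs.pGroup
  obtain ⟨hcl, hsq⟩ := class_two hp hexp hs.cyclic_of_characteristic hcentre
  have hcom : ∀ u v : R, ∃ c : Fˣ, c ^ 4 = 1 ∧ (⁅u, v⁆ : R).1 = Sc c := fun u v =>
    hval _ (⁅u, v⁆ : R).2 (hcenR _ (hcl u v))
  have hsq' : ∀ u ∈ R, ∃ c : Fˣ, c ^ 4 = 1 ∧ u * u = Sc c := fun u hu => by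
    rcases hsq ⟨u, hu⟩ with h | ⟨a, b, hab⟩
    · obtain ⟨c, hc, he⟩ := hval _ ((⟨u, hu⟩ : R) ^ 2).2 (hcenR _ h)
      exact ⟨c, hc, by rw [← he]; simp [sq]⟩
    · exact absurd (Subtype.ext (h4 _ (⁅a, b⁆ : R).2)) hab
  refine ⟨hR6, hroot, hscal, hval, fun u hu v hv => ?_, fun u hu => ?_, hirr⟩
  · obtain ⟨c, -, hc⟩ := hcom ⟨v, hv⟩ ⟨u, hu⟩
    have h1 : v * u = Sc c * (u * v) := by
      rw [← hc]
      simp [commutatorElement_def, mul_assoc]
    obtain ⟨d, -, hd⟩ := hsq' v hv
    -- conjugating twice by `v`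
    have h3 : Sc c * Sc c = 1 := by
      have h5 : v * (v * u) = v * v * u := by rw [mul_assoc]
      rw [h1, ← mul_assoc, Sc_comm, mul_assoc, ← mul_assoc v u v, h1, mul_assoc (Sc c) (u * v) v, mul_assoc u v v,
        hd, ← mul_assoc, ← Sc_comm d u] at h5
      exact mul_eq_right.1 h5
    have h6 : (c : F) * c = 1 := by
      have h := congrArg (fun g : GL (Fin 4) F => (g : M4) 0 0) h3
      simpa [Sc_val] using h
    rcases mul_eq_zero.1 (show ((c : F) - 1) * ((c : F) + 1) = 0 by linear_combination h6) with h | h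
    · left
      rw [h1, show Sc c = 1 from Units.ext (by rw [Sc_val, sub_eq_zero.1 h, one_smul, Units.val_one]), one_mul]
    · right
      rw [← Units.val_mul, h1, Units.val_mul, Units.val_mul, Sc_val, eq_neg_of_add_eq_zero_left h, Matrix.smul_mul,
        neg_smul, one_smul, one_mul]
  · obtain ⟨s, hs, hus⟩ := hsq' u hu
    obtain ⟨i, hi⟩ := hroot
    have hi' : (i : F) ^ 2 = -1 := by rw [← Units.val_pow_eq_pow_val, hi]; rfl
    have hs2 : (s : F) ^ 2 = 1 := by
      have h := congrArg (fun g : GL (Fin 4) F => (g : M4) 0 0) (h4 u hu)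
      rw [show u ^ 4 = (u * u) * (u * u) by rw [pow_succ, pow_succ, pow_succ, pow_one]; group, hus] at h
      simpa [Sc_val, sq] using h
    have key : ∀ c : Fˣ, (c : F) * c * s = 1 → (Sc c * u) * (Sc c * u) = 1 := fun c hc => by
      rw [show Sc c * u * (Sc c * u) = Sc c * (u * Sc c) * u by group, Sc_comm c u,
        show Sc c * (Sc c * u) * u = Sc c * Sc c * (u * u) by group, hus]
      refine Units.ext ?_
      simp [Sc_val, smul_smul]
      rw [show (s : F) * ((c : F) * c) = 1 by linear_combination hc, one_smul]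
    rcases mul_eq_zero.1 (show ((s : F) - 1) * ((s : F) + 1) = 0 by linear_combination hs2) with h | h
    · exact ⟨1, one_pow 4, key 1 (by simp [sub_eq_zero.1 h])⟩
    · refine ⟨i, ?_, key i (by rw [eq_neg_of_add_eq_zero_left h]; linear_combination -hi')⟩
      rw [show 4 = 2 * 2 by norm_num, pow_mul, hi, neg_one_sq]

theorem facts_of_data {R : Subgroup (GL (Fin 4) F)} (_h2 : (2 : F) ≠ 0)
    (hR : Cfsg.Geo.IsLinearSymplecticTypeData 2 R) (hR6 : Nat.card R = 2 ^ 6) : Facts R :=
  facts_of hR.symplecticType hR.absIrred (by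
    obtain ⟨p, e, -, -, h⟩ := hR.field
    rcases h with ⟨h, -⟩ | ⟨-, -, h, -⟩ | ⟨-, -, h, -⟩
    · exact absurd h (by decide)
    · exact h
    · simp at h) hR6

end CfsgLib.HeisFour
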