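import Cfsg.Agent.HeisFour.Facts

/-!
The standard frame for a group of symplectic type of order `2 ^ 6` in `GL_4`.
-/

set_option autoImplicit false

namespace CfsgLib.HeisFour

open Matrix Subgroup

/-- The Gaussian integral matrices. -/
abbrev GM := Matrix (Fin 4) (Fin 4) GaussianInt

/-- `σ_z ⊗ 1`. -/
def gA : GM := !![1, 0, 0, 0; 0, 1, 0, 0; 0, 0, -1, 0; 0, 0, 0, -1]
/-- `σ_x ⊗ 1`. -/
def gB : GM := !![0, 0, 1, 0; 0, 0, 0, 1; 1, 0, 0, 0; 0, 1, 0, 0]
/-- `1 ⊗ σ_z`. -/
def gC : GM := !![1, 0, 0, 0; 0, -1, 0, 0; 0, 0, 1, 0; 0, 0, 0, -1]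
/-- `1 ⊗ σ_x`. -/
def gD : GM := !![0, 1, 0, 0; 1, 0, 0, 0; 0, 0, 0, 1; 0, 0, 1, 0]

theorem gA_sq : gA * gA = 1 := by decide +kernel
theorem gB_sq : gB * gB = 1 := by decide +kernel
theorem gC_sq : gC * gC = 1 := by decide +kernel
theorem gD_sq : gD * gD = 1 := by decide +kernel

/-- The imaginary unit. -/
def gI : GaussianInt := ⟨0, 1⟩

variable {F : Type*} [Field F]

local notation "M4" => Matrix (Fin 4) (Fin 4) F

/-- The map from the Gaussian integers. -/
def toF (i : F) (hi : i * i = -1) : GaussianInt →+* F := Zsqrtd.lift ⟨i, by rw [hi]; norm_num⟩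

theorem toF_gI (i : F) (hi : i * i = -1) : toF i hi gI = i := by simp [toF, gI, Zsqrtd.lift]

/-- The image of a matrix. -/
def img (i : F) (hi : i * i = -1) : GM →+* M4 := (toF i hi).mapMatrix

/-- An involution as a unit. -/
def invU {M : GM} (i : F) (hi : i * i = -1) (hM : M * M = 1) : GL (Fin 4) F :=
  ⟨img i hi M, img i hi M, by rw [← map_mul, hM, map_one], by rw [← map_mul, hM, map_one]⟩

theorem invU_val {M : GM} (i : F) (hi : i * i = -1) (hM : M * M = 1) :
    ((invU i hi hM : GL (Fin 4) F) : M4) = img i hi M := rfl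

variable [Fintype F]

/-- The frame. -/
structure Frame (R : Subgroup (GL (Fin 4) F)) where
  /-- a square root of minus one -/
  i : F
  hi : i * i = -1
  /-- the change of basis -/
  g : GL (Fin 4) F
  hA : g * invU i hi gA_sq * g⁻¹ ∈ R
  hB : g * invU i hi gB_sq * g⁻¹ ∈ R
  hC : g * invU i hi gC_sq * g⁻¹ ∈ R
  hD : g * invU i hi gD_sq * g⁻¹ ∈ R
  scal : ∀ c : Fˣ, c ^ 4 = 1 → Sc c ∈ R
  gen : R ≤ Subgroup.closure ({g * invU i hi gA_sq * g⁻¹, g * invU i hi gB_sq * g⁻¹, g * invU i hi gC_sq * g⁻¹,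
    g * invU i hi gD_sq * g⁻¹} ∪ Sc '' {c : Fˣ | c ^ 4 = 1})

omit [Fintype F] in
theorem trace_zero (h2 : (2 : F) ≠ 0) {X W : M4} (h : W * X = -(X * W)) (hW : W * W = 1) : X.trace = 0 := by
  have h1 : X.trace = (W * X * W).trace := by rw [Matrix.trace_mul_comm, ← mul_assoc, hW, one_mul]
  rw [h, neg_mul, mul_assoc, hW, mul_one, Matrix.trace_neg] at h1
  have : (2 : F) * X.trace = 0 := by linear_combination h1
  exact (mul_eq_zero.1 this).resolve_left h2

set_option maxHeartbeats 1000000 in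
/-- The frame exists. -/
theorem exists_frame (h2 : (2 : F) ≠ 0) {R : Subgroup (GL (Fin 4) F)} (hR : Facts R) : Nonempty (Frame R) := by
  classical
  obtain ⟨iu, hiu⟩ := hR.root
  obtain ⟨i, rfl⟩ : ∃ i, i = (iu : F) := ⟨_, rfl⟩
  have hi : (iu : F) * iu = -1 := by rw [← sq, ← Units.val_pow_eq_pow_val, hiu]; rfl
  haveI : Finite R := Nat.finite_of_card_ne_zero (by rw [hR.card]; norm_num)
  -- sign calculus
  let Cm : GL (Fin 4) F → GL (Fin 4) F → Prop := fun u v => (v : M4) * u = (u : M4) * v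
  let Am : GL (Fin 4) F → GL (Fin 4) F → Prop := fun u v => (v : M4) * u = -((u : M4) * v)
  have hsign : ∀ u ∈ R, ∀ v ∈ R, Cm u v ∨ Am u v := fun u hu v hv =>
    (hR.sign u hu v hv).imp (fun h => by show _ = _; rw [← Units.val_mul, h, Units.val_mul]) id
  have scale : ∀ u ∈ R, ∃ w ∈ R, (w : M4) * w = 1 ∧ ∃ c : Fˣ, c ^ 4 = 1 ∧ w = Sc c * u := fun u hu => by
    obtain ⟨c, hc, h⟩ := hR.invol u hu
    exact ⟨_, R.mul_mem (hR.scal_mem c hc) hu, by rw [← Units.val_mul, h, Units.val_one], c, hc, rfl⟩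
  have sc_am : ∀ (u v : GL (Fin 4) F) (c : Fˣ), Am u v → Am (Sc c * u) v := fun u v c h => by
    show _ = _
    simp only [Units.val_mul, Sc_val, Matrix.smul_mul, one_mul, Matrix.mul_smul]
    rw [show (v : M4) * u = -((u : M4) * v) from h, smul_neg]
  have sc_am' : ∀ (u v : GL (Fin 4) F) (c : Fˣ), Am u v → Am u (Sc c * v) := fun u v c h => by
    show _ = _
    simp only [Units.val_mul, Sc_val, Matrix.smul_mul, one_mul, Matrix.mul_smul]
    rw [show (v : M4) * u = -((u : M4) * v) from h, smul_neg]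
  have sc_cm : ∀ (u v : GL (Fin 4) F) (c : Fˣ), Cm u v → Cm u (Sc c * v) := fun u v c h => by
    show _ = _
    simp only [Units.val_mul, Sc_val, Matrix.smul_mul, one_mul, Matrix.mul_smul]
    rw [show (v : M4) * u = (u : M4) * v from h]
  -- adjusting by an anticommuting pair
  have adjust : ∀ a b, a ∈ R → b ∈ R → Am a b → ∀ u ∈ R, ∃ w : GL (Fin 4) F,
      (w = 1 ∨ w = a ∨ w = b ∨ w = a * b) ∧ Cm a (w * u) ∧ Cm b (w * u) := by
    intro a b ha hb hab u hu
    have hab' : (b : M4) * a = -((a : M4) * b) := hab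
    have hab2 : (a : M4) * b = -((b : M4) * a) := by rw [hab', neg_neg]
    rcases hsign a ha u hu with h1 | h1 <;> rcases hsign b hb u hu with h3 | h3
    · exact ⟨1, Or.inl rfl, by rw [one_mul]; exact h1, by rw [one_mul]; exact h3⟩
    · refine ⟨a, Or.inr (Or.inl rfl), ?_, ?_⟩ <;> show _ = _ <;> rw [Units.val_mul]
      · rw [mul_assoc, show (u : M4) * a = a * u from h1]
      · rw [mul_assoc, show (u : M4) * b = -(b * u) from h3, mul_neg, ← mul_assoc, hab2, neg_mul, neg_neg, mul_assoc]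
    · refine ⟨b, Or.inr (Or.inr (Or.inl rfl)), ?_, ?_⟩ <;> show _ = _ <;> rw [Units.val_mul]
      · rw [mul_assoc, show (u : M4) * a = -(a * u) from h1, mul_neg, ← mul_assoc, hab', neg_mul, neg_neg, mul_assoc]
      · rw [mul_assoc, show (u : M4) * b = b * u from h3]
    · refine ⟨a * b, Or.inr (Or.inr (Or.inr rfl)), ?_, ?_⟩ <;> show _ = _ <;> rw [Units.val_mul, Units.val_mul]
      · rw [mul_assoc, show (u : M4) * a = -(a * u) from h1, mul_neg, ← mul_assoc, mul_assoc (a : M4) b a, hab',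
          mul_neg, neg_mul, neg_neg]
        simp only [mul_assoc]
      · rw [mul_assoc, show (u : M4) * b = -(b * u) from h3, mul_neg, ← mul_assoc (b : M4) ((a : M4) * b) u,
          ← mul_assoc (b : M4) a b, hab', neg_mul, neg_mul]
        simp only [mul_assoc]
  -- the four generators
  have hne : ∃ u ∈ R, ∃ v ∈ R, Am u v := by
    by_contra hno
    push Not at hno
    have hall : ∀ u ∈ R, ∃ c : Fˣ, u = Sc c := fun u hu => by
      obtain ⟨c, -, h⟩ := hR.scal u hu fun v hv => Units.ext (by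
        rw [Units.val_mul, Units.val_mul]
        exact ((hsign u hu v hv).resolve_right (hno u hu v hv)).symm)
      exact ⟨c, h⟩
    obtain ⟨c, hc⟩ := hR.irred (Matrix.single 0 1 1) fun u hu => by
      obtain ⟨c, rfl⟩ := hall u hu
      rw [Sc_val, Matrix.mul_smul, mul_one, Matrix.smul_mul, one_mul]
    have := congrFun (congrFun hc 0) 1
    simp at this
  obtain ⟨a₀, ha₀, b₀, hb₀, hab₀⟩ := hne
  obtain ⟨a, ha, ha2, ca, -, rfl⟩ := scale a₀ ha₀
  obtain ⟨b, hb, hb2, cb, -, rfl⟩ := scale b₀ hb₀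
  set a := Sc ca * a₀
  set b := Sc cb * b₀
  have hab : Am a b := sc_am' _ _ cb (sc_am _ _ ca hab₀)
  have hmemw : ∀ (a b w : GL (Fin 4) F), a ∈ R → b ∈ R → (w = 1 ∨ w = a ∨ w = b ∨ w = a * b) → w ∈ R := by
    intro a b w ha hb h
    rcases h with rfl | rfl | rfl | rfl
    · exact R.one_mem
    · exact ha
    · exact hb
    · exact R.mul_mem ha hb
  obtain ⟨c₀, hc₀, hc₀a, hc₀b, v₀, hv₀, hcd₀⟩ : ∃ c₀ ∈ R, Cm a c₀ ∧ Cm b c₀ ∧ ∃ v ∈ R, Am c₀ v := by
    by_contra hno
    push Not at hno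
    have hcov : ∀ u : R, ∃ t : (Fin 4) × Subgroup.center R, (u : GL (Fin 4) F) =
        (![1, a, b, a * b] t.1)⁻¹ * (t.2.1.1) := by
      intro u
      obtain ⟨w, hw, h1, h3⟩ := adjust a b ha hb hab u u.2
      have hwu := R.mul_mem (hmemw a b w ha hb hw) u.2
      have hcen : (⟨w * u, hwu⟩ : R) ∈ Subgroup.center R := mem_center_iff.2 fun v => Subtype.ext (Units.ext (by
        show ((v : GL (Fin 4) F) * (w * u) : GL (Fin 4) F).1 = ((w * u) * v : GL (Fin 4) F).1
        rw [Units.val_mul, Units.val_mul]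
        exact (hsign _ hwu v v.2).resolve_right (hno _ hwu h1 h3 v v.2)))
      obtain ⟨k, hk⟩ : ∃ k : Fin 4, ![1, a, b, a * b] k = w := by
        rcases hw with rfl | rfl | rfl | rfl
        exacts [⟨0, rfl⟩, ⟨1, rfl⟩, ⟨2, rfl⟩, ⟨3, rfl⟩]
      exact ⟨⟨k, ⟨_, hcen⟩⟩, by rw [hk]; exact (inv_mul_cancel_left w _).symm⟩
    choose t ht using hcov
    have hinj : Function.Injective t := fun u v h => Subtype.ext (by rw [ht u, ht v, h])
    have hle := Nat.card_le_card_of_injective t hinj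
    obtain ⟨_, hsc⟩ : True ∧ Nat.card (Subgroup.center R) ≤ 4 := by
      refine ⟨trivial, ?_⟩
      let T : Finset Fˣ := Finset.univ.filter fun c => c ^ 4 = 1
      have hT : T.card ≤ 4 := by
        have : T.card ≤ ((Polynomial.X ^ 4 - Polynomial.C (1 : F)).roots.toFinset).card := by
          refine Finset.card_le_card_of_injOn (fun c : Fˣ => (c : F)) (fun c hc => ?_) (fun a _ b _ h => Units.ext h)
          rw [Finset.mem_coe, Finset.mem_filter] at hc
          rw [Finset.mem_coe, Multiset.mem_toFinset, Polynomial.mem_roots (Polynomial.X_pow_sub_C_ne_zero (by norm_num) _)]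
          simp [← Units.val_pow_eq_pow_val, hc.2]
        refine this.trans ((Multiset.toFinset_card_le _).trans ((Polynomial.card_roots' _).trans ?_))
        rw [Polynomial.natDegree_X_pow_sub_C]
      choose φ hφ4 hφ using fun z : Subgroup.center R =>
        hR.scal _ z.1.2 fun v hv => (congrArg Subtype.val (mem_center_iff.1 z.2 ⟨v, hv⟩)).symm
      have hinj : Function.Injective fun z => (⟨φ z, Finset.mem_filter.2 ⟨Finset.mem_univ _, hφ4 z⟩⟩ : T) := by
        intro z w h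
        have h' : φ z = φ w := congrArg Subtype.val h
        exact Subtype.ext (Subtype.ext (by rw [hφ z, hφ w, h']))
      have := Nat.card_le_card_of_injective _ hinj
      rw [Nat.card_eq_finsetCard] at this
      omega
    rw [Nat.card_prod, Nat.card_fin, hR.card] at hle
    omega
  obtain ⟨c, hc, hc2, cc, -, rfl⟩ := scale c₀ hc₀
  set c := Sc cc * c₀
  have hca : Cm a c := sc_cm _ _ cc hc₀a
  have hcb : Cm b c := sc_cm _ _ cc hc₀b
  obtain ⟨w, hw, hwa, hwb⟩ := adjust a b ha hb hab v₀ hv₀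
  have hwR := hmemw a b w ha hb hw
  have hwc : Cm c w := by
    show _ = _
    rcases hw with rfl | rfl | rfl | rfl
    · simp
    · exact (show (c : M4) * a = a * c from hca).symm
    · exact (show (c : M4) * b = b * c from hcb).symm
    · rw [Units.val_mul, ← mul_assoc, show (c : M4) * a = a * c from hca, mul_assoc, mul_assoc,
        show (c : M4) * b = b * c from hcb]
  have hcd₁ : Am c (w * v₀) := by
    have h := sc_am _ v₀ cc hcd₀
    show _ = _
    rw [Units.val_mul, mul_assoc, show (v₀ : M4) * c = -((c : M4) * v₀) from h, mul_neg, ← mul_assoc,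
      show (w : M4) * c = c * w from hwc, mul_assoc]
  obtain ⟨d, hd, hd2, cdd, -, rfl⟩ := scale (w * v₀) (R.mul_mem hwR hv₀)
  set d := Sc cdd * (w * v₀)
  have hda : Cm a d := sc_cm _ _ cdd hwa
  have hdb : Cm b d := sc_cm _ _ cdd hwb
  have hcd : Am c d := sc_am' _ _ cdd hcd₁
  -- the vector
  have hab' : (b : M4) * a = -((a : M4) * b) := hab
  have hcd' : (d : M4) * c = -((c : M4) * d) := hcd
  have hca' : (c : M4) * a = a * c := hca
  have hcb' : (c : M4) * b = b * c := hcb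
  have hda' : (d : M4) * a = a * d := hda
  have hdb' : (d : M4) * b = b * d := hdb
  set MA := (a : M4)
  set MB := (b : M4)
  set MC := (c : M4)
  set MD := (d : M4)
  have htr : ((1 + MA) * (1 + MC)).trace = 4 := by
    rw [mul_add, add_mul, add_mul, one_mul, one_mul, mul_one, Matrix.trace_add, Matrix.trace_add, Matrix.trace_add,
      Matrix.trace_one, trace_zero h2 hab' hb2, trace_zero h2 hcd' hd2,
      trace_zero h2 (X := MA * MC) (W := MB) (by rw [← mul_assoc, hab', neg_mul, mul_assoc, ← hcb', ← mul_assoc]) hb2]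
    simp
  have h4 : (4 : F) ≠ 0 := by rw [show (4 : F) = 2 * 2 by norm_num]; exact mul_ne_zero h2 h2
  obtain ⟨u₀, hu₀⟩ : ∃ u₀, ((1 + MA) * (1 + MC)) *ᵥ u₀ ≠ 0 := by
    by_contra hno
    push Not at hno
    apply h4
    rw [← htr, show (1 + MA) * (1 + MC) = 0 from Matrix.ext_iff_mulVec.2 fun u => by rw [hno u, Matrix.zero_mulVec]]
    exact Matrix.trace_zero _ _
  set v := ((1 + MA) * (1 + MC)) *ᵥ u₀ with hv
  have hav : MA *ᵥ v = v := by
    rw [hv, Matrix.mulVec_mulVec, ← mul_assoc, mul_add MA, ha2, mul_one, add_comm MA 1]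
  have hcv : MC *ᵥ v = v := by
    rw [hv, Matrix.mulVec_mulVec, ← mul_assoc, mul_add MC, mul_one, hca', ← one_add_mul, mul_assoc,
      mul_add MC, hc2, mul_one, add_comm MC 1]
  have flip : ∀ (X W : M4) (u : Fin 4 → F) (s : F), W * X = -(X * W) → X *ᵥ u = s • u → X *ᵥ (W *ᵥ u) = (-s) • (W *ᵥ u) :=
    fun X W u s h hu => by
      rw [Matrix.mulVec_mulVec, show X * W = -(W * X) by rw [h, neg_neg], Matrix.neg_mulVec, ← Matrix.mulVec_mulVec,
        hu, Matrix.mulVec_smul, neg_smul]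
  have keep : ∀ (X W : M4) (u : Fin 4 → F) (s : F), W * X = X * W → X *ᵥ u = s • u → X *ᵥ (W *ᵥ u) = s • (W *ᵥ u) :=
    fun X W u s h hu => by
      rw [Matrix.mulVec_mulVec, ← h, ← Matrix.mulVec_mulVec, hu, Matrix.mulVec_smul]
  have hav' : MA *ᵥ v = (1 : F) • v := by rw [hav, one_smul]
  have hcv' : MC *ᵥ v = (1 : F) • v := by rw [hcv, one_smul]
  have a1 : MA *ᵥ (MD *ᵥ v) = (1 : F) • (MD *ᵥ v) := keep _ _ _ _ hda' hav'
  have c1 : MC *ᵥ (MD *ᵥ v) = (-1 : F) • (MD *ᵥ v) := flip _ _ _ _ hcd' hcv'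
  have a2 : MA *ᵥ (MB *ᵥ v) = (-1 : F) • (MB *ᵥ v) := flip _ _ _ _ hab' hav'
  have c2 : MC *ᵥ (MB *ᵥ v) = (1 : F) • (MB *ᵥ v) := keep _ _ _ _ hcb'.symm hcv'
  have a3 : MA *ᵥ (MB *ᵥ (MD *ᵥ v)) = (-1 : F) • (MB *ᵥ (MD *ᵥ v)) := flip _ _ _ _ hab' a1
  have c3 : MC *ᵥ (MB *ᵥ (MD *ᵥ v)) = (-1 : F) • (MB *ᵥ (MD *ᵥ v)) := keep _ _ _ _ hcb'.symm c1
  let e : Fin 4 → Fin 4 → F := ![v, MD *ᵥ v, MB *ᵥ v, MB *ᵥ (MD *ᵥ v)]
  let G : M4 := Matrix.of fun r k => e k r
  have hG : ∀ k, G *ᵥ Pi.single k 1 = e k := fun k => by rw [Matrix.mulVec_single_one]; rfl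
  have hexp : ∀ u, G *ᵥ u = u 0 • e 0 + u 1 • e 1 + u 2 • e 2 + u 3 • e 3 := fun u => by
    funext r
    simp [G, Matrix.mulVec, dotProduct, Fin.sum_univ_four]
    ring
  have hdetG : G.det ≠ 0 := by
    intro h
    obtain ⟨u, hu, hu0⟩ := Matrix.exists_mulVec_eq_zero_iff.2 h
    rw [hexp] at hu0
    have hinjv : ∀ (W : GL (Fin 4) F) (x : Fin 4 → F), x ≠ 0 → (W : M4) *ᵥ x ≠ 0 := fun W x hx h =>
      hx (Matrix.mulVec_injective_iff_isUnit.2 W.isUnit (by simpa using h))
    have hA0 := congrArg (MA *ᵥ ·) hu0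
    have hC0 := congrArg (MC *ᵥ ·) hu0
    have hAC0 := congrArg (fun x => MA *ᵥ (MC *ᵥ x)) hu0
    simp only [e, Matrix.cons_val, Matrix.mulVec_add, Matrix.mulVec_smul, Matrix.mulVec_zero, hav, hcv, a1, a2, a3,
      c1, c2, c3, neg_smul, one_smul, smul_neg, Matrix.mulVec_neg, neg_neg] at hu0 hA0 hC0 hAC0
    have z : ∀ (t : F) (x : Fin 4 → F), x ≠ 0 → (4 : F) • (t • x) = 0 → t = 0 := fun t x hx h =>
      (smul_eq_zero.1 ((smul_eq_zero.1 h).resolve_left h4)).resolve_right hx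
    have z0 : u 0 = 0 := z _ v hu₀ (by
      linear_combination (norm := module) hu0 + hA0 + hC0 + hAC0)
    have z1 : u 1 = 0 := z _ _ (hinjv d v hu₀) (by
      linear_combination (norm := module) hu0 + hA0 - hC0 - hAC0)
    have z2 : u 2 = 0 := z _ _ (hinjv b v hu₀) (by
      linear_combination (norm := module) hu0 - hA0 + hC0 - hAC0)
    have z3 : u 3 = 0 := z _ _ (hinjv b _ (hinjv d v hu₀)) (by
      linear_combination (norm := module) hu0 - hA0 - hC0 + hAC0)
    refine hu (funext fun k => ?_)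
    fin_cases k
    exacts [z0, z1, z2, z3]
  let g : GL (Fin 4) F := Matrix.GeneralLinearGroup.mkOfDetNeZero G hdetG
  have hgv : (g : M4) = G := rfl
  have rel : ∀ (x : GL (Fin 4) F) (M : GM) (hM : M * M = 1),
      (∀ k, (x : M4) *ᵥ e k = G *ᵥ ((img (iu : F) hi M) *ᵥ Pi.single k 1)) →
      g * invU (iu : F) hi hM * g⁻¹ = x := by
    intro x M hM h
    rw [mul_inv_eq_iff_eq_mul]
    refine Units.ext (Matrix.ext_of_mulVec_single fun k => ?_)
    rw [Units.val_mul, Units.val_mul, ← Matrix.mulVec_mulVec, ← Matrix.mulVec_mulVec, invU_val, hgv, hG, h]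
  have bb : ∀ x, MB *ᵥ (MB *ᵥ x) = x := fun x => by rw [Matrix.mulVec_mulVec, hb2, Matrix.one_mulVec]
  have dd : ∀ x, MD *ᵥ (MD *ᵥ x) = x := fun x => by rw [Matrix.mulVec_mulVec, hd2, Matrix.one_mulVec]
  have db : ∀ x, MD *ᵥ (MB *ᵥ x) = MB *ᵥ (MD *ᵥ x) := fun x => by
    rw [Matrix.mulVec_mulVec, hdb', ← Matrix.mulVec_mulVec]
  have hcol : ∀ (M : GM) k, (img (iu : F) hi M) *ᵥ Pi.single k 1 = fun r => toF (iu : F) hi (M r k) := fun M k => by
    rw [Matrix.mulVec_single_one]; rfl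
  have hA' : g * invU (iu : F) hi gA_sq * g⁻¹ = a := rel a gA gA_sq fun k => by
    rw [hcol, hexp]
    show MA *ᵥ e k = _
    fin_cases k <;> simp [e, gA, hav, a1, a2, a3, -Matrix.mulVec_mulVec]
  have hB' : g * invU (iu : F) hi gB_sq * g⁻¹ = b := rel b gB gB_sq fun k => by
    rw [hcol, hexp]
    show MB *ᵥ e k = _
    fin_cases k <;> simp [e, gB, bb, -Matrix.mulVec_mulVec]
  have hC' : g * invU (iu : F) hi gC_sq * g⁻¹ = c := rel c gC gC_sq fun k => by
    rw [hcol, hexp]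
    show MC *ᵥ e k = _
    fin_cases k <;> simp [e, gC, hcv, c1, c2, c3, -Matrix.mulVec_mulVec]
  have hD' : g * invU (iu : F) hi gD_sq * g⁻¹ = d := rel d gD gD_sq fun k => by
    rw [hcol, hexp]
    show MD *ᵥ e k = _
    fin_cases k <;> simp [e, gD, dd, db, -Matrix.mulVec_mulVec]
  refine ⟨⟨(iu : F), hi, g, hA' ▸ ha, hB' ▸ hb, hC' ▸ hc, hD' ▸ hd, hR.scal_mem, ?_⟩⟩
  rw [hA', hB', hC', hD']
  intro u hu
  set K := Subgroup.closure (({a, b, c, d} : Set (GL (Fin 4) F)) ∪ Sc '' {s : Fˣ | s ^ 4 = 1}) with hK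
  have hKa : a ∈ K := subset_closure (Or.inl (by simp))
  have hKb : b ∈ K := subset_closure (Or.inl (by simp))
  have hKc : c ∈ K := subset_closure (Or.inl (by simp))
  have hKd : d ∈ K := subset_closure (Or.inl (by simp))
  have hKw : ∀ (a b w : GL (Fin 4) F), a ∈ K → b ∈ K → (w = 1 ∨ w = a ∨ w = b ∨ w = a * b) → w ∈ K := by
    intro a b w ha hb h
    rcases h with rfl | rfl | rfl | rfl
    · exact K.one_mem
    · exact ha
    · exact hb
    · exact K.mul_mem ha hb
  obtain ⟨w₁, hw₁, h1a, h1b⟩ := adjust a b ha hb hab u hu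
  have hu₁ := R.mul_mem (hmemw a b w₁ ha hb hw₁) hu
  obtain ⟨w₂, hw₂, h2c, h2d⟩ := adjust c d hc hd hcd _ hu₁
  have hu₂ := R.mul_mem (hmemw c d w₂ hc hd hw₂) hu₁
  have hcomw : ∀ x : GL (Fin 4) F, Cm x c → Cm x d → Cm x (w₁ * u) → Cm x (w₂ * (w₁ * u)) := by
    intro x hxc hxd hxu
    have hxw : (w₂ : M4) * x = x * w₂ := by
      rcases hw₂ with rfl | rfl | rfl | rfl
      · simp
      · exact hxc
      · exact hxd
      · rw [Units.val_mul, mul_assoc, show (d : M4) * x = x * d from hxd, ← mul_assoc, show (c : M4) * x = x * c from hxc,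
          mul_assoc]
    show _ = _
    rw [Units.val_mul, mul_assoc, show ((w₁ * u : GL (Fin 4) F) : M4) * x = x * _ from hxu, ← mul_assoc, hxw, mul_assoc]
  have hfa : Cm a (w₂ * (w₁ * u)) := hcomw a hca hda h1a
  have hfb : Cm b (w₂ * (w₁ * u)) := hcomw b hcb hdb h1b
  -- commuting with the four generators is scalar
  obtain ⟨z, hz⟩ : ∃ z : F, ((w₂ * (w₁ * u) : GL (Fin 4) F) : M4) = z • 1 := by
    set U := ((w₂ * (w₁ * u) : GL (Fin 4) F) : M4) with hU
    have hUA : U * MA = MA * U := hfa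
    have hUB : U * MB = MB * U := hfb
    have hUC : U * MC = MC * U := h2c
    have hUD : U * MD = MD * U := h2d
    have hY : ∀ (M : GM) (hM : M * M = 1) (x : GL (Fin 4) F), g * invU (iu : F) hi hM * g⁻¹ = x → U * (x : M4) = x * U →
        (((g⁻¹ : GL (Fin 4) F) : M4) * U * G) * img (iu : F) hi M = img (iu : F) hi M * (((g⁻¹ : GL (Fin 4) F) : M4) * U * G) := by
      intro M hM x hx h
      have e1 : img (iu : F) hi M = ((g⁻¹ * x * g : GL (Fin 4) F) : M4) := by
        rw [← invU_val (iu : F) hi hM, ← hx]; congr 1; group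
      rw [e1, Units.val_mul, Units.val_mul, ← hgv]
      calc _ = ((g⁻¹ : GL (Fin 4) F) : M4) * (U * ((g : M4) * ((g⁻¹ : GL (Fin 4) F) : M4)) * x) * g := by noncomm_ring
        _ = ((g⁻¹ : GL (Fin 4) F) : M4) * ((x : M4) * ((g : M4) * ((g⁻¹ : GL (Fin 4) F) : M4)) * U) * g := by
          rw [← Units.val_mul, mul_inv_cancel, Units.val_one, mul_one, mul_one, h]
        _ = _ := by noncomm_ring
    set Y := ((g⁻¹ : GL (Fin 4) F) : M4) * U * G with hYd
    have eA := hY gA gA_sq a hA' hUA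
    have eB := hY gB gB_sq b hB' hUB
    have eC := hY gC gC_sq c hC' hUC
    have eD := hY gD gD_sq d hD' hUD
    refine ⟨Y 0 0, ?_⟩
    have hYs : Y = Y 0 0 • 1 := by
      have hdA : img (iu : F) hi gA = Matrix.diagonal ![1, 1, -1, -1] := by
        ext r k; fin_cases r <;> fin_cases k <;> simp [img, gA]
      have hdC : img (iu : F) hi gC = Matrix.diagonal ![1, -1, 1, -1] := by
        ext r k; fin_cases r <;> fin_cases k <;> simp [img, gC]
      rw [hdA] at eA
      rw [hdC] at eC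
      have hoff : ∀ r k, r ≠ k → Y r k = 0 := by
        intro r k hrk
        have h1 := congrFun (congrFun eA r) k
        have h3 := congrFun (congrFun eC r) k
        rw [Matrix.mul_diagonal, Matrix.diagonal_mul] at h1 h3
        have two : ∀ y : F, y = -y → y = 0 := fun y h =>
          (mul_eq_zero.1 (show (2 : F) * y = 0 by linear_combination h)).resolve_left h2
        fin_cases r <;> fin_cases k <;> first
          | exact absurd rfl hrk
          | exact two _ (by simpa using h1)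
          | exact two _ (by simpa using h1.symm)
          | exact two _ (by simpa using h3)
          | exact two _ (by simpa using h3.symm)
      have d22 : Y 2 2 = Y 0 0 := by
        have h := congrFun (congrFun eB 2) 0
        simpa [Matrix.mul_apply, Fin.sum_univ_four, img, gB] using h
      have d33 : Y 3 3 = Y 1 1 := by
        have h := congrFun (congrFun eB 3) 1
        simpa [Matrix.mul_apply, Fin.sum_univ_four, img, gB] using h
      have d11 : Y 1 1 = Y 0 0 := by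
        have h := congrFun (congrFun eD 1) 0
        simpa [Matrix.mul_apply, Fin.sum_univ_four, img, gD] using h
      ext r k
      rcases eq_or_ne r k with rfl | hrk
      · fin_cases r <;> simp [d22, d33, d11]
      · simp [hoff r k hrk, hrk]
    have hUe : U = (g : M4) * Y * ((g⁻¹ : GL (Fin 4) F) : M4) := by
      rw [hYd, ← hgv]
      simp only [← mul_assoc]
      rw [← Units.val_mul g g⁻¹, mul_inv_cancel, Units.val_one, one_mul, mul_assoc, ← Units.val_mul, mul_inv_cancel,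
        Units.val_one, mul_one]
    rw [hUe, hYs]
    simp [Matrix.mul_smul, Matrix.smul_mul]
  obtain ⟨s, hs, hse⟩ := hR.scal _ hu₂ fun t _ => Units.ext (by
    rw [Units.val_mul, Units.val_mul _ (w₂ * (w₁ * u)), hz, Matrix.smul_mul, one_mul, Matrix.mul_smul, mul_one])
  have hfin : u = w₁⁻¹ * (w₂⁻¹ * Sc s) := by rw [← hse]; group
  rw [hfin]
  exact K.mul_mem (K.inv_mem (hKw a b w₁ hKa hKb hw₁)) (K.mul_mem (K.inv_mem (hKw c d w₂ hKc hKd hw₂))
    (subset_closure (Or.inr ⟨s, hs, rfl⟩)))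

end CfsgLib.HeisFour
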