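import Cfsg.Agent.HeisFour.Facts

/-!
Elements of odd prime order normalising a group of symplectic type of order `2 ^ 6`.
-/

set_option autoImplicit false

namespace CfsgLib.HeisFour

open Matrix Subgroup

variable {F : Type*} [Field F] [Fintype F] {R : Subgroup (GL (Fin 4) F)}

local notation "M4" => Matrix (Fin 4) (Fin 4) F

theorem Sc_injective {c d : Fˣ} (h : (Sc c : GL (Fin 4) F) = Sc d) : c = d := by
  have := congrArg (fun g : GL (Fin 4) F => (g : M4) 0 0) h
  exact Units.ext (by simpa [Sc_val] using this)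

theorem Sc_pow (c : Fˣ) (n : ℕ) : (Sc c : GL (Fin 4) F) ^ n = Sc (c ^ n) := (map_pow _ c n).symm

theorem conj_iter {y u : GL (Fin 4) F} {c : Fˣ} (h : y * u * y⁻¹ = Sc c * u) (n : ℕ) :
    y ^ n * u * (y ^ n)⁻¹ = Sc (c ^ n) * u := by
  induction n with
  | zero => simp [Sc]
  | succ n ih =>
    calc y ^ (n + 1) * u * (y ^ (n + 1))⁻¹ = y * (y ^ n * u * (y ^ n)⁻¹) * y⁻¹ := by rw [pow_succ']; group
      _ = y * (Sc (c ^ n) * u) * y⁻¹ := by rw [ih]
      _ = Sc (c ^ n) * (y * u * y⁻¹) := by rw [← mul_assoc y, Sc_comm]; group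
      _ = Sc (c ^ n) * Sc c * u := by rw [h]; group
      _ = Sc (c ^ (n + 1)) * u := by rw [pow_succ]; simp [Sc, map_mul]

variable (hR : Facts R)
include hR

theorem root_four {c : Fˣ} (h : Sc c ∈ R) : c ^ 4 = 1 := by
  obtain ⟨d, hd, he⟩ := hR.scal _ h fun v _ => (Sc_comm c v).symm
  rwa [Sc_injective he]

/-- A fixed coset is fixed pointwise. -/
theorem coset_fixed {y u : GL (Fin 4) F} (hN : ∀ v ∈ R, y * v * y⁻¹ ∈ R) {r : ℕ} (hr : r.Prime) (hr2 : r ≠ 2)
    (hy : y ^ r = 1) (hu : u ∈ R) {m : ℕ} (hm : ¬ r ∣ m) {c : Fˣ} (h : y ^ m * u * (y ^ m)⁻¹ = Sc c * u) :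
    y * u = u * y := by
  have hpowN : ∀ n, ∀ v ∈ R, y ^ n * v * (y ^ n)⁻¹ ∈ R := by
    intro n
    induction n with
    | zero => intro v hv; simpa using hv
    | succ n ih =>
      intro v hv
      have := hN _ (ih v hv)
      convert this using 1
      rw [pow_succ']; group
  obtain ⟨a, ha⟩ : ∃ a : ℕ, m * a % r = 1 := by
    obtain ⟨a, -, ha⟩ := Nat.exists_mul_mod_eq_one_of_coprime ((hr.coprime_iff_not_dvd.2 hm).symm) hr.one_lt
    exact ⟨a, ha⟩
  have h1 := conj_iter h a
  rw [← pow_mul, ← Nat.mod_add_div (m * a) r, ha, pow_add, pow_mul, hy, one_pow, pow_one, mul_one] at h1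
  have h3 := conj_iter h1 r
  rw [hy, inv_one, one_mul, mul_one] at h3
  have hc4 : (c ^ a) ^ 4 = 1 := root_four hR (by
    have e : Sc (c ^ a) = (y * u * y⁻¹) * u⁻¹ := by rw [h1, mul_inv_cancel_right]
    rw [e]; exact R.mul_mem (hN u hu) (R.inv_mem hu))
  have hcr : (c ^ a) ^ r = 1 := Sc_injective (by rw [left_eq_mul.1 (h3.trans (Sc_comm _ u).symm)]; simp [Sc])
  have hg : Nat.gcd 4 r = 1 := by
    rw [show (4 : ℕ) = 2 ^ 2 by norm_num]
    exact Nat.Coprime.pow_left 2 ((Nat.coprime_primes Nat.prime_two hr).2 (Ne.symm hr2))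
  have hc1 : c ^ a = 1 := by
    have := pow_gcd_eq_one.2 ⟨hc4, hcr⟩
    rwa [hg, pow_one] at this
  rw [hc1, show Sc (1 : Fˣ) = (1 : GL (Fin 4) F) from map_one _, one_mul] at h1
  exact mul_inv_eq_iff_eq_mul.1 h1

/-- Non-central elements have trace zero. -/
theorem trace_eq_zero (h2 : (2 : F) ≠ 0) {u : GL (Fin 4) F} (hu : u ∈ R) (hns : ∀ c : Fˣ, u ≠ Sc c) :
    (u : M4).trace = 0 := by
  obtain ⟨v, hv, hvu⟩ : ∃ v ∈ R, v * u ≠ u * v := by
    by_contra h
    push Not at h
    obtain ⟨c, -, hc⟩ := hR.scal u hu fun v hv => (h v hv).symm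
    exact hns c hc
  have h : (v : M4) * u = -((u : M4) * v) := (hR.sign u hu v hv).resolve_left hvu
  have h1 : (u : M4).trace = ((v : M4) * u * (v⁻¹ : GL (Fin 4) F)).trace := by
    rw [Matrix.trace_mul_comm, ← mul_assoc, ← Units.val_mul, inv_mul_cancel, Units.val_one, one_mul]
  rw [h, neg_mul, mul_assoc, ← Units.val_mul, mul_inv_cancel, Units.val_one, mul_one, Matrix.trace_neg] at h1
  have : (2 : F) * (u : M4).trace = 0 := by linear_combination h1
  exact (mul_eq_zero.1 this).resolve_left h2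

/-- The centraliser of `y` in `R`. -/
theorem trace_identity (h2 : (2 : F) ≠ 0) {y : GL (Fin 4) F} (hN : ∀ v ∈ R, y * v * y⁻¹ ∈ R) {r : ℕ}
    (hr : r.Prime) (hr2 : r ≠ 2) (hy : y ^ r = 1) :
    16 * ((y : M4).trace * ((y⁻¹ : GL (Fin 4) F) : M4).trace) =
      4 * (Nat.card ((centralizer {y}).subgroupOf R) : F) := by
  classical
  haveI : Finite R := Nat.finite_of_card_ne_zero (by rw [hR.card]; norm_num)
  haveI : Fintype R := Fintype.ofFinite R
  let M : M4 := ∑ u : R, ((u : GL (Fin 4) F) : M4) * (y : M4) * (((u : GL (Fin 4) F)⁻¹ : GL (Fin 4) F) : M4)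
  obtain ⟨c, hc⟩ := hR.irred M fun v hv => by
    have h1 : ((⟨v, hv⟩ : R) : GL (Fin 4) F) = v := rfl
    have h3 : (v : M4) * M = M * (v : M4) := by
      simp only [M, Finset.mul_sum, Finset.sum_mul]
      refine Fintype.sum_equiv (Equiv.mulLeft (⟨v, hv⟩ : R)) _ _ fun u => ?_
      simp only [Equiv.coe_mulLeft, Subgroup.coe_mul, h1, _root_.mul_inv_rev, Units.val_mul]
      simp only [mul_assoc]
      rw [← Units.val_mul v⁻¹ v, inv_mul_cancel, Units.val_one, mul_one]
    exact h3.symm
  have htr : M.trace = 64 * (y : M4).trace := by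
    simp only [M, Matrix.trace_sum]
    rw [Finset.sum_congr rfl (fun (u : R) _ => show (((u : GL (Fin 4) F) : M4) * (y : M4) *
      (((u : GL (Fin 4) F)⁻¹ : GL (Fin 4) F) : M4)).trace = (y : M4).trace by
        rw [Matrix.trace_mul_comm, ← mul_assoc, ← Units.val_mul, inv_mul_cancel, Units.val_one, one_mul]),
      Finset.sum_const, Finset.card_univ, ← Nat.card_eq_fintype_card, hR.card, nsmul_eq_mul]
    norm_num
  rw [hc, Matrix.trace_smul, Matrix.trace_one, Fintype.card_fin, smul_eq_mul] at htr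
  push_cast at htr
  have h4 : (4 : F) ≠ 0 := by rw [show (4 : F) = 2 * 2 by norm_num]; exact mul_ne_zero h2 h2
  have hc16 : c = 16 * (y : M4).trace := mul_right_cancel₀ h4 (by linear_combination htr)
  have hL : (M * ((y⁻¹ : GL (Fin 4) F) : M4)).trace = 16 * ((y : M4).trace * ((y⁻¹ : GL (Fin 4) F) : M4).trace) := by
    rw [hc, Matrix.smul_mul, one_mul, Matrix.trace_smul, smul_eq_mul, hc16]
    ring
  have hterm : ∀ u : R, (((u : GL (Fin 4) F) : M4) * (y : M4) * (((u : GL (Fin 4) F)⁻¹ : GL (Fin 4) F) : M4) *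
      ((y⁻¹ : GL (Fin 4) F) : M4)).trace = if u ∈ (centralizer {y}).subgroupOf R then (4 : F) else 0 := by
    intro u
    have hmem : u ∈ (centralizer {y}).subgroupOf R ↔ (u : GL (Fin 4) F) * y = y * u := by
      rw [mem_subgroupOf, mem_centralizer_singleton_iff]
    rw [← Units.val_mul, ← Units.val_mul, ← Units.val_mul]
    split_ifs with h
    · rw [hmem.1 h, mul_inv_cancel_right, mul_inv_cancel, Units.val_one, Matrix.trace_one, Fintype.card_fin]
      norm_num
    · refine trace_eq_zero hR h2 ?_ fun d hd => h (hmem.2 ?_)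
      · rw [show (u : GL (Fin 4) F) * y * (u : GL (Fin 4) F)⁻¹ * y⁻¹ = u * (y * (u : GL (Fin 4) F)⁻¹ * y⁻¹) by group]
        exact R.mul_mem u.2 (hN _ (R.inv_mem u.2))
      · have h1 : y * (u : GL (Fin 4) F)⁻¹ * y⁻¹ = (u : GL (Fin 4) F)⁻¹ * Sc d := by rw [← hd]; group
        rw [Sc_comm] at h1
        have h3 := coset_fixed hR hN hr hr2 hy (R.inv_mem u.2) (m := 1) (c := d) hr.not_dvd_one (by simpa using h1)
        exact ((Commute.inv_right_iff.1 (show Commute y (u : GL (Fin 4) F)⁻¹ from h3)).symm)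
  rw [← hL]
  simp only [M, Finset.sum_mul, Matrix.trace_sum, hterm]
  rw [← Finset.sum_filter, Finset.sum_const, nsmul_eq_mul, mul_comm]
  congr 2
  rw [Nat.card_eq_fintype_card, Fintype.card_subtype]

/-- Elements with `y + y⁻¹` scalar of prime order at least five centralise `R`. -/
theorem quad_scalar (h2 : (2 : F) ≠ 0) {y : GL (Fin 4) F} (hN : ∀ v ∈ R, y * v * y⁻¹ ∈ R) {r : ℕ}
    (hr : r.Prime) (hr5 : 5 ≤ r) (hy : y ^ r = 1) {t : F}
    (ht : (y : M4) + ((y⁻¹ : GL (Fin 4) F) : M4) = t • 1) :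
    ∃ c : F, (y : M4) = c • 1 := by
  refine hR.irred _ fun u hu => ?_
  by_contra hne
  have hne' : y * u ≠ u * y := fun h => hne (by rw [← Units.val_mul, h, Units.val_mul])
  set z := ((y⁻¹ : GL (Fin 4) F) : M4) with hz
  have hYZ : (y : M4) * z = 1 := by rw [hz, ← Units.val_mul, mul_inv_cancel, Units.val_one]
  have hZY : z * (y : M4) = 1 := by rw [hz, ← Units.val_mul, inv_mul_cancel, Units.val_one]
  have hY : (y : M4) = t • 1 - z := by rw [← ht]; abel
  have hsq : (y : M4) * y = t • (y : M4) - 1 := by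
    conv_lhs => rw [hY]
    rw [sub_mul, Matrix.smul_mul, one_mul, ← hY, hZY]
  have hzsq : z * z = t • z - 1 := by
    have : z = t • 1 - (y : M4) := by rw [← ht]; abel
    conv_lhs => rw [this]
    rw [sub_mul, Matrix.smul_mul, one_mul, ← this, hYZ]
  set s : F := t * t - 2 with hs
  set U := (u : M4)
  have e1 : ∀ w : M4, (y : M4) * ((y : M4) * w) = t • ((y : M4) * w) - w := fun w => by
    rw [← mul_assoc, hsq, sub_mul, Matrix.smul_mul, one_mul]
  have rel : (y : M4) * ((y : M4) * ((y : M4) * (U * (z * (z * z))))) - (s + 1) • ((y : M4) * ((y : M4) * (U * (z * z)))) +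
      (s + 1) • ((y : M4) * (U * z)) - U = 0 := by
    simp only [e1, hzsq, mul_sub, Matrix.mul_smul, mul_one, mul_assoc, smul_sub, smul_smul, hs]
    match_scalars <;> ring
  have htr := congrArg (fun w : M4 => (w * ((u⁻¹ : GL (Fin 4) F) : M4)).trace) rel
  simp only [sub_mul, add_mul, Matrix.smul_mul, Matrix.trace_sub, Matrix.trace_add, Matrix.trace_smul, zero_mul,
    Matrix.trace_zero] at htr
  have hpowN : ∀ n, ∀ v ∈ R, y ^ n * v * (y ^ n)⁻¹ ∈ R := by
    intro n
    induction n with
    | zero => intro v hv; simpa using hv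
    | succ n ih =>
      intro v hv
      have := hN _ (ih v hv)
      convert this using 1
      rw [pow_succ']; group
  have hz0 : ∀ m : ℕ, 1 ≤ m → m ≤ 3 →
      ((y ^ m * u * (y ^ m)⁻¹ * u⁻¹ : GL (Fin 4) F) : M4).trace = 0 := fun m hm1 hm3 =>
    trace_eq_zero hR h2 (R.mul_mem (hpowN m u hu) (R.inv_mem hu)) fun c hc => hne' (coset_fixed hR hN hr (by omega) hy hu
      (m := m) (fun h => by have := Nat.le_of_dvd (by omega) h; omega) (c := c) (by rw [← hc, inv_mul_cancel_right]))
  have t1 := hz0 1 le_rfl (by norm_num)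
  have t2 := hz0 2 (by norm_num) (by norm_num)
  have t3 := hz0 3 (by norm_num) le_rfl
  simp only [pow_succ, pow_zero, one_mul, _root_.mul_inv_rev, Units.val_mul, mul_assoc, ← hz] at t1 t2 t3
  simp only [mul_assoc] at htr
  have t0 : (U * ((u⁻¹ : GL (Fin 4) F) : M4)).trace = 4 := by
    rw [← Units.val_mul, mul_inv_cancel, Units.val_one, Matrix.trace_one, Fintype.card_fin]; norm_num
  rw [t1, t2, t3, t0] at htr
  simp at htr
  exact h2 (by
    have : (2 : F) * 2 = 0 := by linear_combination htr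
    exact (mul_eq_zero.1 this).elim id id)

/-- Congruence for the fixed points in an invariant subgroup. -/
theorem card_modEq {C : Subgroup (GL (Fin 4) F)} [Finite C] {y : GL (Fin 4) F} {r : ℕ} [Fact r.Prime]
    (hN : ∀ v ∈ C, y * v * y⁻¹ ∈ C) (hy : y ^ r = 1) :
    Nat.card C ≡ Nat.card ((centralizer {y}).subgroupOf C) [MOD r] := by
  classical
  haveI : Fintype C := Fintype.ofFinite C
  let f : Function.End C := fun t => ⟨y * t * y⁻¹, hN _ t.2⟩
  have hpow : ∀ (k : ℕ) (t : C), ((f ^ k) t : GL (Fin 4) F) = y ^ k * t * (y ^ k)⁻¹ := by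
    intro k
    induction k with
    | zero => intro t; simp; rfl
    | succ k ih =>
      intro t
      rw [pow_succ']
      show y * ((f ^ k) t : GL (Fin 4) F) * y⁻¹ = _
      rw [ih, pow_succ']
      group
  have hfr : f ^ (r ^ 1) = 1 := funext fun t => Subtype.ext (by rw [hpow, pow_one, hy]; simp; rfl)
  have hmod := Equiv.Perm.card_fixedPoints_modEq hfr
  rw [← Nat.card_eq_fintype_card, ← Nat.card_eq_fintype_card] at hmod
  refine hmod.trans (congrArg (· % r) (Nat.card_congr (Equiv.subtypeEquivRight fun t => ?_)))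
  show f t = t ↔ (t : GL (Fin 4) F) ∈ centralizer {y}
  rw [mem_centralizer_singleton_iff, Subtype.ext_iff]
  show y * t * y⁻¹ = t ↔ _
  rw [mul_inv_eq_iff_eq_mul]
  exact eq_comm

theorem four_dvd {C : Subgroup (GL (Fin 4) F)} (hC : ∀ c : Fˣ, c ^ 4 = 1 → Sc c ∈ C) (h2 : (2 : F) ≠ 0)
    (y : GL (Fin 4) F) : 4 ∣ Nat.card ((centralizer {y}).subgroupOf C) := by
  obtain ⟨i, hi⟩ := hR.root
  have hi4 : i ^ 4 = 1 := by rw [show 4 = 2 * 2 by norm_num, pow_mul, hi, neg_one_sq]
  let e : (centralizer {y}).subgroupOf C := ⟨⟨Sc i, hC i hi4⟩, by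
    rw [mem_subgroupOf, mem_centralizer_singleton_iff]; exact (Sc_comm i y).symm⟩
  have hval : ∀ n : ℕ, ((e ^ n : (centralizer {y}).subgroupOf C) : GL (Fin 4) F) = Sc (i ^ n) := fun n => by
    rw [SubgroupClass.coe_pow, SubgroupClass.coe_pow, Sc_pow]
  have ho : orderOf e = 2 ^ (1 + 1) := by
    haveI : Fact (Nat.Prime 2) := ⟨Nat.prime_two⟩
    refine orderOf_eq_prime_pow (fun h => ?_) ?_
    · have h1 := congrArg (fun g : (centralizer {y}).subgroupOf C => (g : GL (Fin 4) F)) h
      simp only [hval, OneMemClass.coe_one, pow_one] at h1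
      rw [hi] at h1
      have := Sc_injective (h1.trans (map_one (Units.map (Matrix.scalar (Fin 4) : F →+* M4).toMonoidHom)).symm)
      have h3 := congrArg Units.val this
      simp at h3
      exact h2 (by linear_combination -h3)
    · refine Subtype.ext (Subtype.ext ?_)
      rw [hval, show (2 : ℕ) ^ (1 + 1) = 4 by norm_num, hi4]
      exact map_one _
  have := orderOf_dvd_natCard e
  rwa [ho] at this

/-- No element of prime order at least seven normalises `R`, except scalars. -/
theorem seven_scalar (h2 : (2 : F) ≠ 0) {y : GL (Fin 4) F} (hN : ∀ v ∈ R, y * v * y⁻¹ ∈ R) {r : ℕ} [hr : Fact r.Prime]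
    (hr7 : 7 ≤ r) (hy : y ^ r = 1) : ∃ c : F, (y : M4) = c • 1 := by
  classical
  haveI : Finite R := Nat.finite_of_card_ne_zero (by rw [hR.card]; norm_num)
  set K := (centralizer {y}).subgroupOf R with hK
  have hd : Nat.card K ∣ 2 ^ 6 := hR.card ▸ K.card_subgroup_dvd_card
  have h4 := four_dvd hR hR.scal_mem h2 y
  have hmod := card_modEq hR hN hy
  rw [← hK] at h4 hmod
  rw [hR.card] at hmod
  obtain ⟨e, he, hKe⟩ := (Nat.dvd_prime_pow Nat.prime_two).1 hd
  have key : ∀ a b, a ≡ b [MOD r] → b ≤ a → r ∣ a - b := fun a b h hc => (Nat.modEq_iff_dvd' hc).1 h.symm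
  have small : ∀ n, 0 < n → (∀ q, q ∣ n → q.Prime → q ≤ 5) → ¬ r ∣ n := fun n _ h hd => by
    have := h r hd hr.out; omega
  by_cases he6 : e = 6
  · -- everything is fixed
    refine hR.irred _ fun u hu => ?_
    have htop : K = ⊤ := Subgroup.eq_top_of_card_eq K (by rw [hKe, he6, hR.card])
    have : (⟨u, hu⟩ : R) ∈ K := htop ▸ mem_top _
    rw [hK, mem_subgroupOf, mem_centralizer_singleton_iff] at this
    rw [← Units.val_mul, ← Units.val_mul, this]
  exfalso
  have hdvd : r ∣ 2 ^ 6 - 2 ^ e := key _ _ (hKe ▸ hmod) (Nat.pow_le_pow_right (by norm_num) he)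
  have hbad : ∀ n, n ∈ [60, 48, 32, 24] → ¬ r ∣ n := by
    intro n hn hd
    have hp := hr.out
    have hle := Nat.le_of_dvd (by simp at hn; omega) hd
    simp at hn
    rcases hn with rfl | rfl | rfl | rfl <;> interval_cases r <;> revert hp hd <;> decide
  interval_cases e
  · rw [hKe] at h4; norm_num at h4
  · rw [hKe] at h4; norm_num at h4
  · exact hbad 60 (by simp) hdvd
  · -- pass to the centraliser of a fixed non-central element
    obtain ⟨u, hu, hns⟩ : ∃ u : R, u ∈ K ∧ ∀ c : Fˣ, (u : GL (Fin 4) F) ≠ Sc c := by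
      by_contra hno
      push Not at hno
      choose φ hφ using fun u : K => hno u.1 u.2
      let T : Finset Fˣ := Finset.univ.filter fun c => c ^ 4 = 1
      have hT : T.card ≤ 4 := by
        have : T.card ≤ ((Polynomial.X ^ 4 - Polynomial.C (1 : F)).roots.toFinset).card := by
          refine Finset.card_le_card_of_injOn (fun c : Fˣ => (c : F)) (fun c hc => ?_) (fun a _ b _ h => Units.ext h)
          rw [Finset.mem_coe, Finset.mem_filter] at hc
          rw [Finset.mem_coe, Multiset.mem_toFinset, Polynomial.mem_roots (Polynomial.X_pow_sub_C_ne_zero (by norm_num) _)]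
          simp [← Units.val_pow_eq_pow_val, hc.2]
        refine this.trans ((Multiset.toFinset_card_le _).trans ((Polynomial.card_roots' _).trans ?_))
        rw [Polynomial.natDegree_X_pow_sub_C]
      have hinj : Function.Injective fun u : K =>
          (⟨φ u, Finset.mem_filter.2 ⟨Finset.mem_univ _, root_four hR (hφ u ▸ u.1.2)⟩⟩ : T) := by
        intro u w h
        have h' : φ u = φ w := congrArg Subtype.val h
        exact Subtype.ext (Subtype.ext (by rw [hφ u, hφ w, h']))
      have := Nat.card_le_card_of_injective _ hinj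
      rw [Nat.card_eq_finsetCard, hKe] at this
      omega
    rw [hK, mem_subgroupOf, mem_centralizer_singleton_iff] at hu
    set U := (u : GL (Fin 4) F)
    set C := centralizer {U} ⊓ R with hC
    have hCN : ∀ v ∈ C, y * v * y⁻¹ ∈ C := fun v hv => by
      refine mem_inf.2 ⟨mem_centralizer_singleton_iff.2 ?_, hN v hv.2⟩
      have hv' := mem_centralizer_singleton_iff.1 hv.1
      have hcom : y⁻¹ * U = U * y⁻¹ := (Commute.inv_left (show Commute y U from hu.symm)).eq
      calc y * v * y⁻¹ * U = y * (v * U) * y⁻¹ := by rw [mul_assoc, hcom]; group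
        _ = y * (U * v) * y⁻¹ := by rw [hv']
        _ = U * (y * v * y⁻¹) := by rw [← mul_assoc y U, show y * U = U * y from hu.symm]; group
    have hle : C ≤ R := inf_le_right
    haveI : Finite C := Finite.of_injective _ (Subgroup.inclusion_injective hle)
    -- the centraliser has index two
    have hidx : (C.subgroupOf R).index = 2 := by
      obtain ⟨v, hv, hvU⟩ : ∃ v ∈ R, v * U ≠ U * v := by
        by_contra h
        push Not at h
        obtain ⟨c, -, hc⟩ := hR.scal U u.2 fun v hv => (h v hv).symm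
        exact hns c hc
      have hmem : ∀ w : R, w ∈ C.subgroupOf R ↔ (w : GL (Fin 4) F) * U = U * w := fun w => by
        rw [mem_subgroupOf, hC, mem_inf, mem_centralizer_singleton_iff]
        exact ⟨fun h => h.1, fun h => ⟨h, w.2⟩⟩
      refine Subgroup.index_eq_two_iff.2 ⟨⟨v, hv⟩, fun b => ?_⟩
      rw [hmem, hmem]
      have hv' : (v : M4) * U = -((U : M4) * v) := (hR.sign U u.2 v hv).resolve_left hvU
      rcases hR.sign U u.2 b b.2 with hb | hb
      · refine Or.inr ⟨hb, fun h => hvU ?_⟩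
        rw [Subgroup.coe_mul, mul_assoc, show v * U = v * U from rfl] at h
        change (b : GL (Fin 4) F) * (v * U) = U * (b * v) at h
        rw [← mul_assoc U, ← hb, mul_assoc] at h
        exact mul_left_cancel h
      · refine Or.inl ⟨Units.ext ?_, fun h => ?_⟩
        · rw [Subgroup.coe_mul, Units.val_mul, Units.val_mul, Units.val_mul _ ((b : GL (Fin 4) F) * v), Units.val_mul,
            mul_assoc, hv', mul_neg, ← mul_assoc, hb, neg_mul, neg_neg, mul_assoc]
        · have h' := congrArg (fun g : GL (Fin 4) F => (g : M4)) h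
          simp only [Units.val_mul, hb] at h'
          have h0 : ((2 : F) • ((U : M4) * (b : GL (Fin 4) F))) = 0 := by
            rw [two_smul]; nth_rewrite 1 [← h']; exact neg_add_cancel _
          have h1 := (smul_eq_zero.1 h0).resolve_left h2
          rw [← Units.val_mul] at h1
          exact Units.ne_zero _ h1
    have hC32 : Nat.card C = 32 := by
      have h := Subgroup.index_mul_card (C.subgroupOf R)
      rw [hidx, hR.card, Nat.card_congr (Subgroup.subgroupOfEquivOfLe hle).toEquiv] at h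
      omega
    have hmodC := card_modEq hR hCN hy
    set K' := (centralizer {y}).subgroupOf C
    have hK' : Nat.card K' = 8 := by
      have hdd : Nat.card K' ∣ Nat.card K := by
        let f : K' →* K := ((Subgroup.inclusion hle).comp K'.subtype).codRestrict K fun w => by
          rw [hK, mem_subgroupOf]; exact w.2
        refine Subgroup.card_dvd_of_injective f fun a b h => ?_
        exact Subtype.ext (Subgroup.inclusion_injective hle (congrArg Subtype.val h))
      have h4' := four_dvd hR (C := C) (fun c hc => mem_inf.2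
        ⟨mem_centralizer_singleton_iff.2 (Sc_comm c U).symm, hR.scal_mem c hc⟩) h2 y
      have hne : Nat.card K' ≠ 4 := by
        intro h
        have hUC : U ∈ C := mem_inf.2 ⟨mem_centralizer_singleton_iff.2 rfl, u.2⟩
        let w : K' := ⟨⟨U, hUC⟩, by rw [mem_subgroupOf, mem_centralizer_singleton_iff]; exact hu⟩
        obtain ⟨i, hi⟩ := hR.root
        have hi4 : i ^ 4 = 1 := by rw [show 4 = 2 * 2 by norm_num, pow_mul, hi, neg_one_sq]
        have hS : ∀ n : ℕ, Sc (i ^ n) ∈ C := fun n => mem_inf.2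
          ⟨mem_centralizer_singleton_iff.2 (Sc_comm _ U).symm, hR.scal_mem _ (by rw [← pow_mul, mul_comm, pow_mul, hi4, one_pow])⟩
        let g : Fin 5 → K' := fun n => if n = 4 then w else ⟨⟨_, hS n⟩, by
          rw [mem_subgroupOf, mem_centralizer_singleton_iff]; exact (Sc_comm _ y).symm⟩
        have hord : orderOf i = 2 ^ (1 + 1) := by
          haveI : Fact (Nat.Prime 2) := ⟨Nat.prime_two⟩
          refine orderOf_eq_prime_pow (fun h => ?_) (by rw [show (2 : ℕ) ^ (1 + 1) = 4 by norm_num, hi4])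
          rw [pow_one, hi] at h
          have h3 := congrArg Units.val h
          simp at h3
          exact h2 (by linear_combination -h3)
        have hg : Function.Injective g := by
          intro m n hmn
          by_cases hm : m = 4 <;> by_cases hn : n = 4
          · rw [hm, hn]
          · exfalso
            simp only [g, hm, hn, if_true, if_false] at hmn
            exact hns _ (congrArg (fun a : K' => (a : GL (Fin 4) F)) hmn)
          · exfalso
            simp only [g, hm, hn, if_true, if_false] at hmn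
            exact hns _ (congrArg (fun a : K' => (a : GL (Fin 4) F)) hmn).symm
          · simp only [g, hm, hn, if_false] at hmn
            have h5 := Sc_injective (congrArg (fun a : K' => (a : GL (Fin 4) F)) hmn)
            have hm4 : (m : ℕ) < 4 := by have := m.isLt; have : (m : ℕ) ≠ 4 := fun e => hm (Fin.ext e); omega
            have hn4 : (n : ℕ) < 4 := by have := n.isLt; have : (n : ℕ) ≠ 4 := fun e => hn (Fin.ext e); omega
            exact Fin.ext (pow_injOn_Iio_orderOf (show (m : ℕ) ∈ Set.Iio (orderOf i) by rw [hord]; simpa using hm4)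
              (show (n : ℕ) ∈ Set.Iio (orderOf i) by rw [hord]; simpa using hn4) h5)
        have := Nat.card_le_card_of_injective g hg
        rw [Nat.card_fin, h] at this
        omega
      rw [hKe] at hdd
      have h8 : Nat.card K' ∈ Nat.divisors 8 := Nat.mem_divisors.2 ⟨by simpa using hdd, by norm_num⟩
      rw [show Nat.divisors 8 = {1, 2, 4, 8} by decide] at h8
      simp only [Finset.mem_insert, Finset.mem_singleton] at h8
      have h4'' : 4 ∣ Nat.card K' := h4'
      omega
    rw [hC32, hK'] at hmodC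
    exact hbad 24 (by simp) (key _ _ hmodC (by norm_num))
  · exact hbad 48 (by simp) hdvd
  · exact hbad 32 (by simp) hdvd
  · exact he6 rfl

end CfsgLib.HeisFour
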