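import Cfsg.Agent.HeisFour.Unitary

/-!
Normal forms for elements of order three and five in `GU_4`.
-/

set_option autoImplicit false

namespace CfsgLib.HeisFour

open Matrix CfsgLib.UGeom

variable {F : Type*} [Field F] [Fintype F] {q : ℕ}

local notation "M4" => Matrix (Fin 4) (Fin 4) F
local notation "V4" => (Fin 4 → F)
local notation "hh" => Cfsg.hermForm 4 F q

variable (C : Conj F q)

/-- The form with a given Gram matrix. -/
def Jf (J : M4) (u v : V4) : F := ∑ i, ∑ j, u i * C.σ (v j) * J i j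

/-- The columns of `P` have the Gram matrix `J`. -/
def Gram (P : GL (Fin 4) F) (J : M4) : Prop :=
  ∀ u v : V4, hh ((P : M4) *ᵥ u) ((P : M4) *ᵥ v) = Jf C J u v

/-- The centraliser of `D` meets every determinant in the group of `J`. -/
def Cent (D : GL (Fin 4) F) (J : M4) : Prop :=
  ∀ δ : Fˣ, (δ : F) * C.σ δ = 1 → ∃ E : GL (Fin 4) F, E * D = D * E ∧ Matrix.GeneralLinearGroup.det E = δ ∧
    ∀ u v : V4, Jf C J ((E : M4) *ᵥ u) ((E : M4) *ᵥ v) = Jf C J u v

variable {C}

/-- Conjugation through a common normal form. -/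
theorem conj_of_gram {x y P Q D : GL (Fin 4) F} {J : M4} (hx : x * P = P * D) (hy : y * Q = Q * D)
    (hP : Gram C P J) (hQ : Gram C Q J) (hD : Cent C D J) :
    ∃ g ∈ Cfsg.GU 4 F q ⊓ Cfsg.Geo.specialLinear (Fin 4) F, g⁻¹ * x * g = y := by
  refine conj_frames C hx hy (fun u v => by rw [hP, hQ]) fun δ hδ => ?_
  obtain ⟨E, h1, h2, h3⟩ := hD δ hδ
  exact ⟨E, h1, h2, fun u v => by rw [hP, hP, h3]⟩

theorem gram_of_basis {e : Fin 4 → V4} {J : M4} (hJ : ∀ i j, hh (e i) (e j) = J i j) {P : GL (Fin 4) F}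
    (hP : ∀ k, (P : M4) *ᵥ Pi.single k 1 = e k) : Gram C P J :=
  fun u v => gram_cols C e hP (fun i j => J i j) hJ u v

/-- A vector orthogonal to a basis vanishes. -/
theorem eq_zero_of_basis (C : Conj F q) {e : Fin 4 → V4} (hli : LinearIndependent F e) {d : V4}
    (h : ∀ j, hh d (e j) = 0) : d = 0 := by
  refine ext_form C fun x => ?_
  have hx : x ∈ Submodule.span F (Set.range e) := by
    rw [hli.span_eq_top_of_card_eq_finrank (by simp)]; trivial
  rw [form_zero_left]
  induction hx using Submodule.span_induction with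
  | mem x hx => obtain ⟨j, rfl⟩ := hx; exact h j
  | zero => exact form_zero_right C d
  | add a b _ _ ha hb => rw [form_add_right C, ha, hb, add_zero]
  | smul c a _ ha => rw [form_smul_right C, ha, mul_zero]

/-- Every element of norm one is a quotient of conjugates. -/
theorem exists_ratio (C : Conj F q) (h2 : (2 : F) ≠ 0) {i : F} (hi : i ≠ 0) (hσi : C.σ i = -i) {δ : F}
    (hδ : δ * C.σ δ = 1) : ∃ μ : F, μ ≠ 0 ∧ μ = δ * C.σ μ := by
  by_cases h : δ = -1
  · exact ⟨i, hi, by rw [h, hσi, neg_one_mul, neg_neg]⟩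
  · refine ⟨1 + δ, fun h0 => h (eq_neg_of_add_eq_zero_right h0), ?_⟩
    rw [map_add, map_one, mul_add, mul_one, hδ, add_comm]

/-- The Gram matrix of two orthonormal vectors and a hyperbolic pair. -/
def J1 : M4 := !![0, 1, 0, 0; 1, 0, 0, 0; 0, 0, 1, 0; 0, 0, 0, 1]
/-- The Gram matrix of two hyperbolic pairs. -/
def J2 : M4 := !![0, 0, 1, 0; 0, 0, 0, 1; 1, 0, 0, 0; 0, 1, 0, 0]

/-- A diagonal unit. -/
def diagU (d : Fin 4 → Fˣ) : GL (Fin 4) F where
  val := Matrix.diagonal fun k => (d k : F)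
  inv := Matrix.diagonal fun k => ((d k)⁻¹ : Fˣ)
  val_inv := by rw [Matrix.diagonal_mul_diagonal]; simp
  inv_val := by rw [Matrix.diagonal_mul_diagonal]; simp

omit [Fintype F] in
theorem diagU_val (d : Fin 4 → Fˣ) : ((diagU d : GL (Fin 4) F) : M4) = Matrix.diagonal fun k => (d k : F) := rfl

omit [Fintype F] in
theorem diagU_mulVec (d : Fin 4 → Fˣ) (u : V4) : ((diagU d : GL (Fin 4) F) : M4) *ᵥ u = fun k => (d k : F) * u k :=
  funext fun k => by rw [diagU_val, Matrix.mulVec_diagonal]

omit [Fintype F] in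
theorem diagU_comm (d d' : Fin 4 → Fˣ) : diagU d * diagU d' = diagU d' * diagU d := Units.ext (by
  rw [Units.val_mul, Units.val_mul, diagU_val, diagU_val, Matrix.diagonal_mul_diagonal, Matrix.diagonal_mul_diagonal]
  congr 1; funext k; exact mul_comm _ _)

omit [Fintype F] in
theorem det_diagU (d : Fin 4 → Fˣ) : Matrix.GeneralLinearGroup.det (diagU d) = d 0 * d 1 * d 2 * d 3 := Units.ext (by
  show (Matrix.diagonal fun k => (d k : F)).det = _
  simp [Matrix.det_diagonal, Fin.prod_univ_four])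

/-- The first normal form of an element of order three. -/
def D1 (ω : Fˣ) : GL (Fin 4) F := diagU ![ω, ω * ω, 1, 1]
/-- The second normal form of an element of order three. -/
def D2 (ω : Fˣ) : GL (Fin 4) F := diagU ![ω, ω, ω * ω, ω * ω]

theorem cent_D1 (ω : Fˣ) : Cent C (D1 ω) J1 := fun δ hδ => by
  refine ⟨diagU ![1, 1, δ, 1], diagU_comm _ _, by rw [det_diagU]; simp, fun u v => ?_⟩
  simp [Jf, J1, diagU_mulVec, Fin.sum_univ_four]
  linear_combination (u 2 * C.σ (v 2)) * hδ

theorem cent_D2 (h2 : (2 : F) ≠ 0) {i : F} (hi : i ≠ 0) (hσi : C.σ i = -i) (ω : Fˣ) : Cent C (D2 ω) J2 := fun δ hδ => by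
  obtain ⟨μ, hμ0, hμ⟩ := exists_ratio C h2 hi hσi hδ
  have hσμ : C.σ μ ≠ 0 := by simpa using hμ0
  refine ⟨diagU ![Units.mk0 μ hμ0, 1, (Units.mk0 (C.σ μ) hσμ)⁻¹, 1], diagU_comm _ _, ?_, fun u v => ?_⟩
  · rw [det_diagU]
    refine Units.ext ?_
    simp
    field_simp
    linear_combination hμ
  · simp [Jf, J2, diagU_mulVec, Fin.sum_univ_four, C.invol]
    field_simp

/-- Normal forms of elements of order three, when the field has rational cube roots of unity. -/
theorem three_frame (C : Conj F q) (h3 : (3 : F) ≠ 0) {ω : Fˣ} (hω : (ω : F) * ω + ω + 1 = 0)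
    (hσ : C.σ ω = ω) {x : GL (Fin 4) F} (hx : x ∈ Cfsg.GU 4 F q) (hx3 : x ^ 3 = 1) (hne : x ≠ 1) :
    (∃ P, x * P = P * D1 ω ∧ Gram C P J1) ∨ ∃ P, x * P = P * D2 ω ∧ Gram C P J2 := by
  set M := (x : M4)
  have hM3 : ∀ u, M *ᵥ (M *ᵥ (M *ᵥ u)) = u := fun u => by
    rw [Matrix.mulVec_mulVec, Matrix.mulVec_mulVec, ← Units.val_mul, ← Units.val_mul, ← sq, ← pow_succ, hx3,
      Units.val_one, Matrix.one_mulVec]
  set w := (ω : F)
  have hw3 : w * (w * w) = 1 := by linear_combination (w - 1) * hω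
  have hw1 : w ≠ 1 := fun h => h3 (by rw [h] at hω; linear_combination hω)
  have hw2 : w * w ≠ 1 := fun h => hw1 (by linear_combination hw3 - w * h)
  obtain ⟨P1, Pa, Pb, m1, ma, mb, hsum⟩ : ∃ P1 Pa Pb : V4 → V4, (∀ u, M *ᵥ P1 u = (1 : F) • P1 u) ∧
      (∀ u, M *ᵥ Pa u = w • Pa u) ∧ (∀ u, M *ᵥ Pb u = (w * w) • Pb u) ∧ ∀ u, u = P1 u + Pa u + Pb u := by
    refine ⟨fun u => (3 : F)⁻¹ • (u + M *ᵥ u + M *ᵥ (M *ᵥ u)),
      fun u => (3 : F)⁻¹ • (u + (w * w) • (M *ᵥ u) + w • (M *ᵥ (M *ᵥ u))),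
      fun u => (3 : F)⁻¹ • (u + w • (M *ᵥ u) + (w * w) • (M *ᵥ (M *ᵥ u))), fun u => ?_, fun u => ?_, fun u => ?_, fun u => ?_⟩
    · simp only [Matrix.mulVec_smul, Matrix.mulVec_add, hM3]
      module
    · simp only [Matrix.mulVec_smul, Matrix.mulVec_add, hM3]
      match_scalars
      all_goals first | ring1 | linear_combination (-(3 : F)⁻¹) * hw3 | linear_combination (-(3 : F)⁻¹ * w) * hw3
    · simp only [Matrix.mulVec_smul, Matrix.mulVec_add, hM3]
      match_scalars
      all_goals first | ring1 | linear_combination (-(3 : F)⁻¹) * hw3 | linear_combination (-(3 : F)⁻¹ * w) * hw3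
    · match_scalars
      all_goals field_simp
      · norm_num
      all_goals linear_combination -hω
  have oab : ∀ {a b : F} {u v : V4}, M *ᵥ u = a • u → M *ᵥ v = b • v → a * C.σ b ≠ 1 → hh u v = 0 :=
    fun hu hv hab => eig_orth4 C hx hab hu hv
  -- a partner for every eigenvector of `w`
  have pick : ∀ v, v ≠ 0 → M *ᵥ v = w • v → ∃ f, M *ᵥ f = (w * w) • f ∧ hh v f = 1 := by
    intro v hv0 hv
    obtain ⟨u, hu⟩ := exists_form_ne_zero C hv0
    rw [hsum u, form_add_right C, form_add_right C, oab hv (m1 u) (by rw [map_one, mul_one]; exact hw1),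
      oab hv (ma u) (by rw [hσ]; exact hw2), zero_add, zero_add] at hu
    refine ⟨C.σ (hh v (Pb u))⁻¹ • Pb u, by rw [Matrix.mulVec_smul, mb, smul_comm], ?_⟩
    rw [form_smul_right C, C.invol, inv_mul_cancel₀ hu]
  have ortho : ∀ v, M *ᵥ v = (w * w) • v → ∀ u, hh v u = hh v (Pa u) := by
    intro v hv u
    conv_lhs => rw [hsum u]
    rw [form_add_right C, form_add_right C, oab hv (m1 u) (by rw [map_one, mul_one]; exact hw2),
      oab hv (mb u) (by rw [map_mul, hσ]; exact fun h => hw1 (by linear_combination h - w * hw3)), zero_add, add_zero]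
  obtain ⟨u₀, hu₀⟩ : ∃ u, Pa u ≠ 0 := by
    by_contra hno
    push Not at hno
    have hb : ∀ u, Pb u = 0 := fun u => ext_form C fun z => by
      rw [ortho _ (mb u), hno, form_zero_right C, form_zero_left]
    refine hne (Units.ext (Matrix.ext_iff_mulVec.2 fun u => ?_))
    rw [Units.val_one, Matrix.one_mulVec]
    conv_lhs => rw [hsum u, hno, hb, add_zero, add_zero]
    conv_rhs => rw [hsum u, hno, hb, add_zero, add_zero]
    exact (m1 u).trans (one_smul _ _)
  set e1 := Pa u₀
  obtain ⟨f1, hf1, hef⟩ := pick e1 hu₀ (ma u₀)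
  have hfe : hh f1 e1 = 1 := by rw [← form_conj C, hef, map_one]
  have hww : ∀ {u v : V4}, M *ᵥ u = w • u → M *ᵥ v = w • v → hh u v = 0 := fun hu hv =>
    oab hu hv (by rw [hσ]; exact hw2)
  have hbb : ∀ {u v : V4}, M *ᵥ u = (w * w) • u → M *ᵥ v = (w * w) • v → hh u v = 0 := fun hu hv =>
    oab hu hv (by rw [map_mul, hσ]; exact fun h => hw1 (by linear_combination h - w * hw3))
  have mul_cases : ∀ (P : GL (Fin 4) F) (e : Fin 4 → V4) (d : Fin 4 → Fˣ),
      (∀ k, (P : M4) *ᵥ Pi.single k 1 = e k) → (∀ k, M *ᵥ e k = (d k : F) • e k) → x * P = P * diagU d := by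
    intro P e d hP h
    refine mul_eq_of_cols e hP fun k => ?_
    rw [h k, diagU_val]
    fin_cases k <;> simp
  by_cases hk : ∃ e2, e2 ≠ 0 ∧ M *ᵥ e2 = w • e2 ∧ hh e2 f1 = 0
  · right
    obtain ⟨e2, h20, h2w, h21⟩ := hk
    obtain ⟨f, hf, he2f⟩ := pick e2 h20 h2w
    set f2 := f - hh f e1 • f1 with hf2d
    have hf2 : M *ᵥ f2 = (w * w) • f2 := by
      rw [hf2d, Matrix.mulVec_sub, Matrix.mulVec_smul, hf, hf1, smul_sub, smul_comm]
    have h12 : hh e2 f2 = 1 := by rw [hf2d, form_sub_right C, form_smul_right C, he2f, h21, mul_zero, sub_zero]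
    have h11 : hh f2 e1 = 0 := by rw [hf2d, form_sub_left, form_smul_left, hfe, mul_one, sub_self]
    let e : Fin 4 → V4 := ![e1, e2, f1, f2]
    have hJ : ∀ i j, hh (e i) (e j) = (J2 : M4) i j := by
      have hfe2 : hh f2 e2 = 1 := by rw [← form_conj C, h12, map_one]
      have h11' : hh e1 f2 = 0 := by rw [← form_conj C, h11, map_zero]
      have h21' : hh f1 e2 = 0 := by rw [← form_conj C, h21, map_zero]
      intro i j
      fin_cases i <;> fin_cases j <;>
        simp [e, J2, hww (ma u₀) (ma u₀), hww (ma u₀) h2w, hww h2w (ma u₀), hww h2w h2w, hbb hf1 hf1, hbb hf1 hf2,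
          hbb hf2 hf1, hbb hf2 hf2, hef, hfe, h12, h11, hfe2, h11', h21, h21', e1]
    obtain ⟨P, hP⟩ := exists_cols e (li_of_gram (q := q) fun c hc => funext fun k => by
      have h0 := hc 0; have h1 := hc 1; have h2' := hc 2; have h3' := hc 3
      simp [hJ, J2] at h0 h1 h2' h3'
      fin_cases k <;> assumption)
    refine ⟨P, mul_cases P e _ hP fun k => ?_, gram_of_basis hJ hP⟩
    fin_cases k
    · exact ma u₀
    · exact h2w
    · simpa [e] using hf1
    · simpa [e] using hf2
  · left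
    push Not at hk
    -- the orthogonal complement of the pair is fixed
    let T : V4 → V4 := fun u => u - hh u f1 • e1 - hh u e1 • f1
    have hspan : ∀ v, M *ᵥ v = w • v → v = hh v f1 • e1 := fun v hv => by
      by_contra h
      refine hk (v - hh v f1 • e1) (sub_ne_zero.2 h)
        (by rw [Matrix.mulVec_sub, Matrix.mulVec_smul, hv, ma u₀, smul_sub, smul_comm]) ?_
      rw [form_sub_left, form_smul_left, hef, mul_one, sub_self]
    have hspan' : ∀ v, M *ᵥ v = (w * w) • v → v = hh v e1 • f1 := fun v hv => by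
      refine ext_form C fun z => ?_
      rw [ortho v hv z, hspan _ (ma z), form_smul_left, ortho f1 hf1 z]
      conv_rhs => rw [hspan _ (ma z)]
      rw [form_smul_right C, form_smul_right C, hfe]
      ring
    let W : Submodule F V4 := LinearMap.ker (Matrix.toLin' (M - 1))
    have hW : ∀ u, u ∈ W ↔ M *ᵥ u = u := fun u => by
      simp [W, LinearMap.mem_ker, Matrix.sub_mulVec, sub_eq_zero]
    let φ : V4 →ₗ[F] F × F :=
      { toFun := fun u => (hh u f1, hh u e1)
        map_add' := fun a b => by simp [form_add_left]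
        map_smul' := fun a b => by simp [form_smul_left] }
    have hW1 : ∀ u ∈ W, hh u e1 = 0 ∧ hh u f1 = 0 := fun u hu => by
      have hu' : M *ᵥ u = (1 : F) • u := by rw [one_smul]; exact (hW u).1 hu
      exact ⟨oab hu' (ma u₀) (by rw [one_mul, hσ]; exact hw1),
        oab hu' hf1 (by rw [one_mul, map_mul, hσ]; exact hw2)⟩
    have hker : LinearMap.ker φ = W := by
      ext u
      constructor
      · intro hu
        have h1 : hh u f1 = 0 := congrArg Prod.fst hu
        have h2' : hh u e1 = 0 := congrArg Prod.snd hu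
        have hP : P1 u ∈ W := (hW _).2 ((m1 u).trans (one_smul _ _))
        have s := hsum u
        rw [hspan _ (ma u), hspan' _ (mb u)] at s
        have a0 : hh (Pa u) f1 = 0 := by
          rw [s, form_add_left, form_add_left, form_smul_left, form_smul_left, (hW1 _ hP).2, hef,
            hbb hf1 hf1] at h1
          simpa using h1
        have b0 : hh (Pb u) e1 = 0 := by
          rw [s, form_add_left, form_add_left, form_smul_left, form_smul_left, (hW1 _ hP).1, hfe,
            hww (ma u₀) (ma u₀)] at h2'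
          simpa using h2'
        rw [a0, b0, zero_smul, zero_smul, add_zero, add_zero] at s
        rwa [← s] at hP
      · intro hu
        exact Prod.ext (hW1 u hu).2 (hW1 u hu).1
    have hrange : LinearMap.range φ = ⊤ := LinearMap.range_eq_top.2 fun ab =>
      ⟨ab.1 • e1 + ab.2 • f1, by
        show (hh _ f1, hh _ e1) = ab
        rw [form_add_left, form_add_left, form_smul_left, form_smul_left, form_smul_left, form_smul_left, hef, hfe,
          hbb hf1 hf1, hww (ma u₀) (ma u₀)]
        simp⟩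
    have hdim : Module.finrank F W = 2 := by
      have h := LinearMap.finrank_range_add_finrank_ker φ
      rw [hrange, hker, finrank_top, Module.finrank_prod, Module.finrank_self, Module.finrank_fin_fun] at h
      omega
    obtain ⟨g, hg, hgo⟩ := exists_on C (W := W) fun u hu h => ext_form C fun z => by
      have hu' : M *ᵥ u = (1 : F) • u := by rw [one_smul]; exact (hW u).1 hu
      rw [form_zero_left, hsum z, form_add_right C, form_add_right C, h _ ((hW _).2 ((m1 z).trans (one_smul _ _))),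
        oab hu' (ma z) (by rw [one_mul, hσ]; exact hw1),
        oab hu' (mb z) (by rw [one_mul, map_mul, hσ]; exact hw2), add_zero, add_zero]
    let g0 := g (Fin.cast hdim.symm 0)
    let g1 := g (Fin.cast hdim.symm 1)
    let e : Fin 4 → V4 := ![e1, f1, g0, g1]
    have g0W := hW1 g0 (hg _)
    have g1W := hW1 g1 (hg _)
    have hJ : ∀ i j, hh (e i) (e j) = (J1 : M4) i j := by
      have a1 : hh g0 g0 = 1 := by simp [g0, hgo]
      have a2 : hh g1 g1 = 1 := by simp [g1, hgo]
      have a3 : hh g0 g1 = 0 := by simp [g0, g1, hgo]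
      have a4 : hh g1 g0 = 0 := by simp [g0, g1, hgo]
      have sym : ∀ {a b : V4}, hh a b = 0 → hh b a = 0 := fun h => by rw [← form_conj C, h, map_zero]
      intro i j
      fin_cases i <;> fin_cases j <;>
        simp [e, J1, hww (ma u₀) (ma u₀), hbb hf1 hf1, hef, hfe, a1, a2, a3, a4, g0W.1, g0W.2, g1W.1, g1W.2,
          sym g0W.1, sym g0W.2, sym g1W.1, sym g1W.2, e1]
    obtain ⟨P, hP⟩ := exists_cols e (li_of_gram (q := q) fun c hc => funext fun k => by
      have h0 := hc 0; have h1 := hc 1; have h2' := hc 2; have h3' := hc 3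
      simp [hJ, J1] at h0 h1 h2' h3'
      fin_cases k <;> assumption)
    refine ⟨P, mul_cases P e _ hP fun k => ?_, gram_of_basis hJ hP⟩
    fin_cases k
    · exact ma u₀
    · simpa [e] using hf1
    · simpa [e] using (hW g0).1 (hg _)
    · simpa [e] using (hW g1).1 (hg _)

/-- A root of `X ^ 2 + X - 1` moved by the conjugation. -/
theorem exists_trace_five {p : ℕ} [Fact p.Prime] [CharP F p] (C : Conj F p) (h2 : (2 : F) ≠ 0)
    (h5 : orderOf (p : ZMod 5) = 4) :
    ∃ t : F, t * t + t = 1 ∧ C.σ t = -1 - t ∧ (5 : F) ≠ 0 ∧ (∀ c : F, c * c ≠ t * c - 1) ∧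
      ∀ c : F, c * c ≠ (-1 - t) * c - 1 := by
  haveI : Fact (Nat.Prime 5) := ⟨by norm_num⟩
  have hp2 : ((p : ℕ) : ZMod 5) ^ 2 ≠ 1 := fun h => by
    have := orderOf_dvd_of_pow_eq_one h
    rw [h5] at this
    norm_num at this
  have h50 : (5 : F) ≠ 0 := fun h => by
    have := (Nat.prime_dvd_prime_iff_eq Fact.out (by norm_num : Nat.Prime 5)).1
      ((CharP.cast_eq_zero_iff F p 5).1 (by exact_mod_cast h))
    subst this
    rw [ZMod.natCast_self, orderOf_eq_zero (fun hf => by
      obtain ⟨n, hn, h1⟩ := isOfFinOrder_iff_pow_eq_one.1 hf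
      rw [zero_pow (by omega)] at h1
      exact zero_ne_one h1)] at h5
    omega
  have noroot : ∀ s c : F, s * s + s = 1 → c * c ≠ s * c - 1 := by
    intro s c hs hc
    have hphi : c ^ 4 + c ^ 3 + c ^ 2 + c + 1 = 0 := by
      linear_combination (c * c + (1 + s) * c + 1) * hc + (c * c) * hs
    have hc5 : c ^ 5 = 1 := by linear_combination (c - 1) * hphi
    have hc1 : c ≠ 1 := fun h => h50 (by rw [h] at hphi; linear_combination hphi)
    have hc0 : c ≠ 0 := fun h => by rw [h] at hc5; simp at hc5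
    have ho : orderOf (Units.mk0 c hc0) = 5 := orderOf_eq_prime (Units.ext (by simpa using hc5))
      (fun h => hc1 (by simpa using congrArg Units.val h))
    have hd := orderOf_dvd_natCard (Units.mk0 c hc0)
    rw [ho, Nat.card_units, Nat.card_eq_fintype_card, C.card] at hd
    apply hp2
    have h1 : 1 ≤ p ^ 2 := Nat.one_le_pow _ _ (by have := C.two_le; omega)
    have h0 : ((p ^ 2 - 1 : ℕ) : ZMod 5) = 0 := (ZMod.natCast_eq_zero_iff _ _).2 hd
    rw [Nat.cast_sub h1, Nat.cast_pow, Nat.cast_one, sub_eq_zero] at h0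
    exact h0
  have hodd : p % 2 = 1 := by
    rcases (Fact.out : p.Prime).eq_two_or_odd with h | h
    · exfalso; subst h; exact h2 (by exact_mod_cast (CharP.cast_eq_zero_iff F 2 2).2 dvd_rfl)
    · exact h
  have sqrt : ∀ a : F, C.σ a = a → ∃ s, s * s = a := by
    intro a ha
    rcases eq_or_ne a 0 with rfl | ha0
    · exact ⟨0, mul_zero _⟩
    have hpa : a ^ (p - 1) = 1 := by
      rw [C.pow, show p = p - 1 + 1 by omega, pow_succ] at ha
      exact mul_right_cancel₀ ha0 (ha.trans (one_mul a).symm)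
    have hchar : ringChar F ≠ 2 := by
      rw [ringChar.eq F p]; omega
    obtain ⟨s, hs⟩ := (FiniteField.isSquare_iff hchar ha0).2 (by
      rw [C.card]
      obtain ⟨k, rfl⟩ : ∃ k, p = 2 * k + 1 := ⟨p / 2, by omega⟩
      rw [show (2 * k + 1) ^ 2 / 2 = (2 * k + 1 - 1) * (k + 1) by
        rw [Nat.add_sub_cancel]
        have : (2 * k + 1) ^ 2 = 2 * (2 * k * (k + 1)) + 1 := by ring
        omega, pow_mul, hpa, one_pow])
    exact ⟨s, hs.symm⟩
  obtain ⟨s, hs⟩ := sqrt 5 (map_ofNat C.σ 5)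
  have ht : (-1 + s) / 2 * ((-1 + s) / 2) + (-1 + s) / 2 = 1 := by
    field_simp
    linear_combination hs
  set t := (-1 + s) / 2
  have hst : C.σ t * C.σ t + C.σ t = 1 := by rw [← map_mul, ← map_add, ht, map_one]
  rcases mul_eq_zero.1 (show (C.σ t - t) * (C.σ t + t + 1) = 0 by linear_combination hst - ht) with h | h
  · exfalso
    have hfix : C.σ t = t := sub_eq_zero.1 h
    obtain ⟨d, hd⟩ := sqrt (t * t - 4) (by rw [map_sub, map_mul, hfix, map_ofNat])
    refine noroot t ((t + d) / 2) ht ?_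
    field_simp
    linear_combination hd
  · refine ⟨t, ht, by linear_combination h, h50, fun c => noroot t c ht, fun c => noroot _ c ?_⟩
    linear_combination ht

/-- The normal form of an element of order five. -/
def C5 (t t' : F) : M4 := !![0, -1, 0, 0; 1, t, 0, 0; 0, 0, t', -1; 0, 0, 1, 0]

omit [Fintype F] in
theorem det_C5 (t t' : F) : (C5 t t').det = 1 := by
  simp [C5, Matrix.det_succ_row_zero, Fin.sum_univ_succ, Fin.succAbove]

/-- The normal form of an element of order five as a unit. -/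
noncomputable def D5 (t t' : F) : GL (Fin 4) F :=
  Matrix.GeneralLinearGroup.mkOfDetNeZero (C5 t t') (by rw [det_C5]; exact one_ne_zero)

theorem cent_D5 (h2 : (2 : F) ≠ 0) {i : F} (hi : i ≠ 0) (hσi : C.σ i = -i) (hodd : Fintype.card F % 2 = 1) {t : F}
    (hno : ∀ c : F, c * c ≠ t * c - 1) : Cent C (D5 t (C.σ t)) J2 := fun δ hδ => by
  obtain ⟨μ, hμ0, hμ⟩ := exists_ratio C h2 hi hσi hδ
  have hk : 1 - t * t / 4 ≠ 0 := fun h => hno (t / 2) (by
    have h4 : (4 : F) ≠ 0 := by rw [show (4 : F) = 2 * 2 by norm_num]; exact mul_ne_zero h2 h2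
    field_simp at h ⊢
    linear_combination h)
  obtain ⟨a, b, hab⟩ := FiniteField.exists_root_sum_quadratic (R := F)
    (f := Polynomial.X ^ 2) (g := Polynomial.C (1 - t * t / 4) * Polynomial.X ^ 2 - Polynomial.C μ)
    (Polynomial.degree_X_pow 2) (by
      rw [Polynomial.degree_sub_eq_left_of_degree_lt]
      · exact Polynomial.degree_C_mul_X_pow 2 hk
      · rw [Polynomial.degree_C_mul_X_pow 2 hk]
        exact Polynomial.degree_C_le.trans_lt (by norm_num)) hodd
  simp only [Polynomial.eval_pow, Polynomial.eval_X, Polynomial.eval_sub, Polynomial.eval_mul, Polynomial.eval_C] at hab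
  set α := a - t / 2 * b with hα
  have hΔ : α * (α + t * b) + b * b = μ := by
    have h4 : (4 : F) ≠ 0 := by rw [show (4 : F) = 2 * 2 by norm_num]; exact mul_ne_zero h2 h2
    rw [hα]
    field_simp at hab ⊢
    linear_combination hab
  have hσμ : C.σ μ ≠ 0 := by simpa using hμ0
  have hΔ' : C.σ α * (C.σ α + C.σ t * C.σ b) + C.σ b * C.σ b = C.σ μ := by
    rw [← hΔ]; simp only [map_add, map_mul]
  let n := (C.σ μ)⁻¹
  let E : M4 := !![α, -b, 0, 0; b, α + t * b, 0, 0;
    0, 0, n * (C.σ α + C.σ t * C.σ b), -(n * C.σ b); 0, 0, n * C.σ b, n * C.σ α]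
  have hd : E.det = (δ : F) := by
    have e : E.det = μ * n := by
      simp [E, Matrix.det_succ_row_zero, Fin.sum_univ_succ, Fin.succAbove]
      rw [← hΔ]
      simp only [n]
      field_simp
      linear_combination (α * (α + t * b) + b * b) * hΔ'
    rw [e]
    simp only [n]
    field_simp
    linear_combination hμ
  have hEd : E.det ≠ 0 := fun h => δ.ne_zero (hd.symm.trans h)
  refine ⟨Matrix.GeneralLinearGroup.mkOfDetNeZero E hEd, Units.ext ?_, Units.ext hd, fun u v => ?_⟩
  · show E * C5 t (C.σ t) = C5 t (C.σ t) * E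
    ext r k
    fin_cases r <;> fin_cases k <;> simp [E, C5, Matrix.mul_apply, Fin.sum_univ_four] <;> ring
  · show Jf C J2 (E *ᵥ u) (E *ᵥ v) = _
    have hσn : C.σ n = μ⁻¹ := by simp [n, C.invol]
    simp [Jf, J2, E, Matrix.mulVec, dotProduct, Fin.sum_univ_four, C.invol, hσn]
    simp only [n]
    field_simp
    linear_combination (μ * (u 2 * C.σ (v 0) + u 3 * C.σ (v 1))) * hΔ' +
      (C.σ μ * (u 0 * C.σ (v 2) + u 1 * C.σ (v 3))) * hΔ

/-- Elements of order five have one normal form when `p` has order four modulo five. -/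
theorem five_frame (C : Conj F q) {t : F} (ht : t * t + t = 1) (hσt : C.σ t = -1 - t) (h5 : (5 : F) ≠ 0)
    (hno : ∀ c : F, c * c ≠ t * c - 1) (hno' : ∀ c : F, c * c ≠ (-1 - t) * c - 1)
    {x : GL (Fin 4) F} (hx : x ∈ Cfsg.GU 4 F q) (hx5 : x ^ 5 = 1) (hne : x ≠ 1) :
    ∃ P, x * P = P * D5 t (C.σ t) ∧ Gram C P J2 := by
  set M := (x : M4) with hMdef
  set N := ((x⁻¹ : GL (Fin 4) F) : M4) with hN
  have hM5 : M ^ 5 = 1 := by rw [hMdef, ← Units.val_pow_eq_pow_val, hx5, Units.val_one]
  have hNM : N = M ^ 4 := by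
    rw [hN, show x⁻¹ = x ^ 4 from inv_eq_of_mul_eq_one_right (by rw [← pow_succ']; exact hx5), Units.val_pow_eq_pow_val]
  have hMN : ∀ u, M *ᵥ (N *ᵥ u) = u := fun u => by
    rw [Matrix.mulVec_mulVec, hN, hMdef, ← Units.val_mul, mul_inv_cancel, Units.val_one, Matrix.one_mulVec]
  have hadj : ∀ u v, hh (M *ᵥ u) v = hh u (N *ᵥ v) := fun u v => by
    conv_lhs => rw [← hMN v]
    exact mem_GU4.1 hx _ _
  have hadj' : ∀ u v, hh (N *ᵥ u) v = hh u (M *ᵥ v) := fun u v => by
    rw [← mem_GU4.1 hx (N *ᵥ u) v, hMN]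
  let S : M4 := M + N
  have hS : ∀ u, S *ᵥ u = M *ᵥ u + N *ᵥ u := fun u => Matrix.add_mulVec _ _ _
  have hsa : ∀ u v, hh (S *ᵥ u) v = hh u (S *ᵥ v) := fun u v => by
    rw [hS, hS, form_add_left, hadj, hadj', form_add_right C, add_comm]
  have hcub : S * S * S = S * S + (3 : F) • S - (2 : F) • 1 := by
    have hid : ((Polynomial.X + Polynomial.X ^ 4) * (Polynomial.X + Polynomial.X ^ 4) *
        (Polynomial.X + Polynomial.X ^ 4) : Polynomial F) = (Polynomial.X + Polynomial.X ^ 4) * (Polynomial.X +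
        Polynomial.X ^ 4) + Polynomial.C 3 * (Polynomial.X + Polynomial.X ^ 4) - Polynomial.C 2 +
        (Polynomial.X ^ 5 - 1) * (Polynomial.X ^ 7 + Polynomial.X ^ 2 + 3 * Polynomial.X ^ 4 - Polynomial.X ^ 3 +
          3 * Polynomial.X - 2) := by
      rw [map_ofNat, map_ofNat]; ring
    have h := congrArg (Polynomial.aeval M) hid
    simp only [map_mul, map_add, map_sub, map_pow, Polynomial.aeval_X, Polynomial.aeval_C, hM5, map_one, sub_self,
      zero_mul, add_zero, ← hNM] at h
    rw [Algebra.algebraMap_eq_smul_one, Algebra.algebraMap_eq_smul_one, Matrix.smul_mul, one_mul] at h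
    exact h
  have hcubv : ∀ u, S *ᵥ (S *ᵥ (S *ᵥ u)) = S *ᵥ (S *ᵥ u) + (3 : F) • (S *ᵥ u) - (2 : F) • u := fun u => by
    simpa [Matrix.sub_mulVec, Matrix.add_mulVec, Matrix.smul_mulVec, Matrix.mulVec_mulVec, mul_assoc] using
      congrArg (fun X : M4 => X *ᵥ u) hcub
  set t' := -1 - t with ht'
  -- projections
  let π : F → V4 → V4 := fun a u => S *ᵥ (S *ᵥ u) - (2 + a) • (S *ᵥ u) + (2 * a) • u
  have hπt : ∀ u, S *ᵥ π t' u = t • π t' u := fun u => by
    simp only [π, Matrix.mulVec_add, Matrix.mulVec_sub, Matrix.mulVec_smul, hcubv]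
    rw [ht']
    match_scalars <;> first | ring1 | linear_combination ht | linear_combination -ht | linear_combination (2 : F) * ht | linear_combination (-2 : F) * ht
  have hπt' : ∀ u, S *ᵥ π t u = t' • π t u := fun u => by
    simp only [π, Matrix.mulVec_add, Matrix.mulVec_sub, Matrix.mulVec_smul, hcubv]
    rw [ht']
    match_scalars <;> first | ring1 | linear_combination ht | linear_combination -ht | linear_combination (2 : F) * ht | linear_combination (-2 : F) * ht
  have hσt' : C.σ t' = t := by rw [ht', map_sub, map_neg, map_one, hσt]; ring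
  have hπh : ∀ (a b : F) v u, S *ᵥ v = b • v →
      hh v (π a u) = ((b - 2) * (b - C.σ a)) * hh v u := by
    intro a b v u hv
    simp only [π, form_add_right C, form_sub_right C, form_smul_right C, ← hsa, hv, Matrix.mulVec_smul,
      form_smul_left, map_add, map_mul, map_ofNat]
    ring
  have h2t : ∀ b : F, b * b + b = 1 → b - 2 ≠ 0 := fun b hb h => h5 (by
    rw [sub_eq_zero.1 h] at hb; linear_combination hb)
  have hne' : t - t' ≠ 0 := by
    rw [ht']; intro h
    exact h5 (by linear_combination (2 * t + 1) * h - 4 * ht)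
  have ht't : t' * t' + t' = 1 := by rw [ht']; linear_combination ht
  -- the two isotropic eigenspaces
  have orth : ∀ {a b : F} {u v : V4}, S *ᵥ u = a • u → S *ᵥ v = b • v → a ≠ C.σ b → hh u v = 0 := by
    intro a b u v hu hv hab
    have h := hsa u v
    rw [hu, hv, form_smul_left, form_smul_right C] at h
    by_contra h0
    exact hab (mul_right_cancel₀ h0 h)
  have itt : ∀ {u v : V4}, S *ᵥ u = t • u → S *ᵥ v = t • v → hh u v = 0 := fun hu hv =>
    orth hu hv (by rw [hσt]; exact fun h => hne' (sub_eq_zero.2 h))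
  have it't' : ∀ {u v : V4}, S *ᵥ u = t' • u → S *ᵥ v = t' • v → hh u v = 0 := fun hu hv =>
    orth hu hv (by rw [hσt']; exact fun h => hne' (sub_eq_zero.2 h.symm))
  obtain ⟨u₀, hu₀⟩ : ∃ u, π t' u ≠ 0 := by
    by_contra hno0
    push Not at hno0
    have hz : ∀ u, π t u = 0 := fun u => ext_form C fun z => by
      have h := hπh t' t' (π t u) z (hπt' u)
      rw [hno0, form_zero_right C, hσt'] at h
      rw [form_zero_left]
      exact (mul_eq_zero.1 h.symm).resolve_left
        (mul_ne_zero (h2t _ ht't) fun e => hne' (by linear_combination -e))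
    have hS2 : ∀ u, S *ᵥ u = (2 : F) • u := fun u => by
      have a1 := hno0 u
      have a2 := hz u
      simp only [π] at a1 a2
      have : (t - t') • (S *ᵥ u - (2 : F) • u) = 0 := by linear_combination (norm := module) a1 - a2
      exact sub_eq_zero.1 ((smul_eq_zero.1 this).resolve_left hne')
    have hsq : (M - 1) * (M - 1) = 0 := by
      have hs : S = (2 : F) • 1 := Matrix.ext_iff_mulVec.2 fun u => by
        rw [hS2, Matrix.smul_mulVec, Matrix.one_mulVec]
      have hMN' : M * N = 1 := by rw [hN, hMdef, ← Units.val_mul, mul_inv_cancel, Units.val_one]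
      calc (M - 1) * (M - 1) = M * (M + N) - (2 : F) • M - M * N + 1 := by
            rw [two_smul]; noncomm_ring
        _ = 0 := by
          rw [show M + N = S from rfl, hs, hMN', Matrix.mul_smul, mul_one]; abel
    have h5' : (5 : F) • (M - 1) = 0 := by
      set A := M - 1 with hA
      have hM : M = 1 + A := by rw [hA]; abel
      have a2 : M ^ 2 = 1 + (A + A) := by
        rw [hM, sq]
        simp only [mul_add, add_mul, one_mul, mul_one, hsq]; abel
      have a4 : M ^ 4 = 1 + (A + A + (A + A)) := by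
        rw [show M ^ 4 = M ^ 2 * M ^ 2 from (pow_add M 2 2), a2]
        simp only [mul_add, add_mul, one_mul, mul_one, hsq]; abel
      have a5 : M ^ 5 = 1 + (A + A + (A + A) + A) := by
        rw [pow_succ, a4, hM]
        simp only [mul_add, add_mul, one_mul, mul_one, hsq]; abel
      rw [hM5] at a5
      have := left_eq_add.1 a5
      rw [← this]
      module
    exact hne (Units.ext (by rw [Units.val_one]; exact sub_eq_zero.1 ((smul_eq_zero.1 h5').resolve_left h5)))
  set e1 := π t' u₀ with he1d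
  have he1 : S *ᵥ e1 = t • e1 := hπt u₀
  set e2 := M *ᵥ e1 with he2d
  have hSM : ∀ u, S *ᵥ (M *ᵥ u) = M *ᵥ (S *ᵥ u) := fun u => by
    rw [Matrix.mulVec_mulVec, Matrix.mulVec_mulVec]
    congr 1
    simp only [S, add_mul, mul_add]
    congr 1
    rw [hN, hMdef, ← Units.val_mul, ← Units.val_mul, inv_mul_cancel, mul_inv_cancel]
  have he2 : S *ᵥ e2 = t • e2 := by rw [he2d, hSM, he1, Matrix.mulVec_smul]
  have hNe1 : N *ᵥ e1 = t • e1 - e2 := by rw [← he1, hS, he2d]; abel
  have hMe2 : M *ᵥ e2 = t • e2 - e1 := by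
    have h := congrArg (M *ᵥ ·) hNe1
    simp only [hMN, Matrix.mulVec_sub, Matrix.mulVec_smul, ← he2d] at h
    linear_combination (norm := module) h
  obtain ⟨z, hz⟩ := exists_form_ne_zero C hu₀
  set w := π t z with hwd
  have hw : S *ᵥ w = t' • w := hπt' z
  have ha : hh w e1 ≠ 0 := fun h => by
    have h1 : hh e1 w = 0 := by rw [← form_conj C, h, map_zero]
    rw [hwd, hπh t t e1 z he1, hσt] at h1
    rcases mul_eq_zero.1 h1 with h1 | h1
    · exact mul_ne_zero (h2t _ ht) hne' h1
    · exact hz h1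
  have hMw : S *ᵥ (M *ᵥ w) = t' • (M *ᵥ w) := by rw [hSM, hw, Matrix.mulVec_smul]
  set a := hh w e1
  set b := hh (M *ᵥ w) e1
  have b1 : hh (M *ᵥ w) e2 = a := mem_GU4.1 hx w e1
  have b0 : hh w e2 = t' * a - b := by
    have hNw : N *ᵥ w = t' • w - M *ᵥ w := by rw [← hw, hS]; abel
    rw [he2d, ← hadj', hNw, form_sub_left, form_smul_left]
  set Δ := a * a - b * (t' * a - b)
  have hΔ : Δ ≠ 0 := fun h => hno' (b / a) (by
    show _ = t' * (b / a) - 1
    field_simp
    linear_combination h)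
  set f1 := (a / Δ) • w + (-(t' * a - b) / Δ) • (M *ᵥ w) with hf1d
  set f2 := (-b / Δ) • w + (a / Δ) • (M *ᵥ w) with hf2d
  have hf1 : S *ᵥ f1 = t' • f1 := by
    rw [hf1d, Matrix.mulVec_add, Matrix.mulVec_smul, Matrix.mulVec_smul, hw, hMw]; module
  have hf2 : S *ᵥ f2 = t' • f2 := by
    rw [hf2d, Matrix.mulVec_add, Matrix.mulVec_smul, Matrix.mulVec_smul, hw, hMw]; module
  have c11 : hh f1 e1 = 1 := by
    rw [hf1d, form_add_left, form_smul_left, form_smul_left]
    field_simp
    simp only [Δ]; ring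
  have c12 : hh f1 e2 = 0 := by
    rw [hf1d, form_add_left, form_smul_left, form_smul_left, b0, b1]
    field_simp
    ring
  have c21 : hh f2 e1 = 0 := by
    rw [hf2d, form_add_left, form_smul_left, form_smul_left]
    field_simp
    ring
  have c22 : hh f2 e2 = 1 := by
    rw [hf2d, form_add_left, form_smul_left, form_smul_left, b0, b1]
    field_simp
    simp only [Δ]; ring
  have sym : ∀ u v : V4, hh v u = C.σ (hh u v) := fun u v => (form_conj C u v).symm
  let e : Fin 4 → V4 := ![e1, e2, f1, f2]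
  have hJ : ∀ i j, hh (e i) (e j) = (J2 : M4) i j := by
    have d11 : hh e1 f1 = 1 := by rw [sym f1 e1, c11, map_one]
    have d21 : hh e2 f1 = 0 := by rw [sym f1 e2, c12, map_zero]
    have d12 : hh e1 f2 = 0 := by rw [sym f2 e1, c21, map_zero]
    have d22 : hh e2 f2 = 1 := by rw [sym f2 e2, c22, map_one]
    intro i j
    fin_cases i <;> fin_cases j <;>
      simp [e, J2, c11, c12, c21, c22, d11, d12, d21, d22, itt he1 he1, itt he1 he2, itt he2 he1, itt he2 he2,
        it't' hf1 hf1, it't' hf1 hf2, it't' hf2 hf1, it't' hf2 hf2]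
  have hli : LinearIndependent F e := li_of_gram (q := q) fun c hc => funext fun k => by
    have h0 := hc 0; have h1 := hc 1; have h2' := hc 2; have h3' := hc 3
    simp [hJ, J2] at h0 h1 h2' h3'
    fin_cases k <;> assumption
  obtain ⟨P, hP⟩ := exists_cols e hli
  have col : ∀ f, S *ᵥ f = t' • f →
      M *ᵥ f = hh f (t • e1 - e2) • f1 + hh f e1 • f2 := by
    intro f hf
    have hMf : S *ᵥ (M *ᵥ f) = t' • (M *ᵥ f) := by rw [hSM, hf, Matrix.mulVec_smul]
    refine sub_eq_zero.1 (eq_zero_of_basis C hli fun j => ?_)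
    have k0 : hh (M *ᵥ f) e1 = hh f (t • e1 - e2) := by rw [hadj, hNe1]
    have k1 : hh (M *ᵥ f) e2 = hh f e1 := mem_GU4.1 hx f e1
    fin_cases j <;>
      simp [e, form_sub_left, form_add_left, form_smul_left, c11, c12, c21, c22, k0, k1,
        it't' hMf hf1, it't' hMf hf2, it't' hf1 hf1, it't' hf2 hf1, it't' hf1 hf2, it't' hf2 hf2]
  refine ⟨P, mul_eq_of_cols e hP fun k => ?_, gram_of_basis hJ hP⟩
  show M *ᵥ e k = (C5 t (C.σ t)) 0 k • e 0 + (C5 t (C.σ t)) 1 k • e 1 + (C5 t (C.σ t)) 2 k • e 2 +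
    (C5 t (C.σ t)) 3 k • e 3
  fin_cases k
  · simp [e, C5, he2d]
  · simp [e, C5, hMe2]; abel
  · simp [e, C5, col f1 hf1, form_sub_right C, form_smul_right C, c11, c12]
  · simp [e, C5, col f2 hf2, form_sub_right C, form_smul_right C, c21, c22]

end CfsgLib.HeisFour
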