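import Cfsg.Agent.HeisFour.Unitary

/-!
A unitary frame for a group of symplectic type of order `2 ^ 6` inside `GU_4`.
-/

set_option autoImplicit false

namespace CfsgLib.HeisFour

open Matrix Subgroup CfsgLib.UGeom

variable {F : Type*} [Field F] [Fintype F] {q : ℕ}

local notation "M4" => Matrix (Fin 4) (Fin 4) F
local notation "V4" => (Fin 4 → F)
local notation "hh" => Cfsg.hermForm 4 F q

/-- A matrix criterion for the unitary group. -/
theorem mem_GU4_of_mat (C : Conj F q) {y : GL (Fin 4) F}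
    (h : (y : M4)ᵀ * (y : M4).map C.σ = 1) : y ∈ Cfsg.GU 4 F q :=
  mem_GU4.2 fun u v => by
    have e : ∀ w : V4, (fun k => C.σ (((y : M4) *ᵥ w) k)) = (y : M4).map C.σ *ᵥ fun k => C.σ (w k) := fun w =>
      funext fun k => by simp [Matrix.mulVec, dotProduct, map_sum]
    rw [form_eq C, form_eq C]
    show ((y : M4) *ᵥ u) ⬝ᵥ (fun k => C.σ (((y : M4) *ᵥ v) k)) = u ⬝ᵥ fun k => C.σ (v k)
    rw [e, Matrix.dotProduct_mulVec, ← Matrix.vecMul_transpose, Matrix.vecMul_vecMul, h, Matrix.vecMul_one]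

omit [Fintype F] in
theorem conj_Sc [Fintype F] (g X : GL (Fin 4) F) (t : Fˣ) : g * Sc t * X * (g * Sc t)⁻¹ = g * X * g⁻¹ := by
  rw [mul_assoc g, ← Sc_comm t X]
  group

/-- The conjugation sends the imaginary unit to its negative. -/
theorem conj_i (C : Conj F q) (hq : q % 4 = 3) {i : F} (hi : i * i = -1) : C.σ i = -i := by
  rw [C.pow, ← Nat.div_add_mod q 4, hq, pow_add, pow_mul,
    show i ^ 4 = 1 by linear_combination (i * i - 1) * hi, one_pow, one_mul]
  linear_combination i * hi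

/-- The conjugation on the image of the Gaussian integers. -/
theorem conj_toF (C : Conj F q) (hq : q % 4 = 3) {i : F} (hi : i * i = -1) (z : GaussianInt) :
    C.σ (toF i hi z) = toF i hi (star z) := by
  simp [toF, Zsqrtd.lift, conj_i C hq hi]

/-- Half of an integral matrix with orthogonal columns is unitary. -/
theorem half_mem (C : Conj F q) (hq : q % 4 = 3) (h2 : (2 : F) ≠ 0) {i : F} (hi : i * i = -1) {Y : GM}
    (hY : Yᵀ * Y.map star = (4 : GaussianInt) • 1) {y : GL (Fin 4) F}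
    (hy : (y : M4) = (2 : F)⁻¹ • img i hi Y) : y ∈ Cfsg.GU 4 F q := by
  refine mem_GU4_of_mat C ?_
  have e : (y : M4).map C.σ = (2 : F)⁻¹ • img i hi (Y.map star) := by
    ext r k
    simp [hy, img, conj_toF C hq hi, map_inv₀, map_ofNat]
  have e' : (img i hi Y)ᵀ = img i hi Yᵀ := rfl
  rw [e, hy, Matrix.transpose_smul, Matrix.smul_mul, Matrix.mul_smul, smul_smul, e', ← map_mul, hY]
  ext r k
  simp [img, Matrix.one_apply, map_ofNat]
  split_ifs
  · rw [show toF i hi 4 = 4 from map_ofNat (toF i hi) 4]; field_simp; norm_num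
  · simp

theorem y5_herm : y5ᵀ * y5.map star = (4 : GaussianInt) • 1 := by decide +kernel
theorem y3_herm : y3ᵀ * y3.map star = (4 : GaussianInt) • 1 := by decide +kernel
theorem z3_herm : z3ᵀ * z3.map star = (4 : GaussianInt) • 1 := by decide +kernel

/-- A frame may be taken unitary. -/
theorem exists_unitary_frame (C : Conj F q) (h2 : (2 : F) ≠ 0) {R : Subgroup (GL (Fin 4) F)}
    (hRU : R ≤ Cfsg.GU 4 F q) (H : Frame R) : ∃ H' : Frame R, H'.g ∈ Cfsg.GU 4 F q := by
  let e : Fin 4 → V4 := fun k => (H.g : M4) *ᵥ Pi.single k 1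
  have act : ∀ {X : GM} (hX : X * X = 1), H.g * invU H.i H.hi hX * H.g⁻¹ ∈ R →
      ∀ u v : V4, hh ((H.g : M4) *ᵥ (img H.i H.hi X *ᵥ u)) ((H.g : M4) *ᵥ (img H.i H.hi X *ᵥ v)) =
        hh ((H.g : M4) *ᵥ u) ((H.g : M4) *ᵥ v) := by
    intro X hX hm u v
    have key : ∀ w : V4, ((H.g * invU H.i H.hi hX * H.g⁻¹ : GL (Fin 4) F) : M4) *ᵥ ((H.g : M4) *ᵥ w) =
        (H.g : M4) *ᵥ (img H.i H.hi X *ᵥ w) := fun w => by
      rw [Matrix.mulVec_mulVec, ← Units.val_mul, inv_mul_cancel_right, Units.val_mul, invU_val, ← Matrix.mulVec_mulVec]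
    rw [← key, ← key]
    exact mem_GU4.1 (hRU hm) _ _
  have col : ∀ (X : GM) (k : Fin 4), img H.i H.hi X *ᵥ Pi.single k 1 = fun r => toF H.i H.hi (X r k) := fun X k => by
    rw [Matrix.mulVec_single_one]; rfl
  have flip : ∀ {X : GM} (hX : X * X = 1) (hm : H.g * invU H.i H.hi hX * H.g⁻¹ ∈ R) (j k : Fin 4) (s : F),
      s = -1 →
      img H.i H.hi X *ᵥ Pi.single j 1 = (1 : F) • (Pi.single j 1 : V4) →
      img H.i H.hi X *ᵥ Pi.single k 1 = s • (Pi.single k 1 : V4) → hh (e j) (e k) = 0 := by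
    intro X hX hm j k s hs hj hk
    have h := act hX hm (Pi.single j 1) (Pi.single k 1)
    rw [hj, hk, one_smul, Matrix.mulVec_smul, form_smul_right C, hs, map_neg, map_one] at h
    have h' : (2 : F) * hh (e j) (e k) = 0 := by linear_combination -h
    exact (mul_eq_zero.1 h').resolve_left h2
  have hA0 : ∀ j, img H.i H.hi gA *ᵥ Pi.single j 1 = (![1, 1, -1, -1] j : F) • (Pi.single j 1 : V4) := fun j => by
    rw [col]; funext r
    fin_cases j <;> fin_cases r <;> simp [gA]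
  have hC0 : ∀ j, img H.i H.hi gC *ᵥ Pi.single j 1 = (![1, -1, 1, -1] j : F) • (Pi.single j 1 : V4) := fun j => by
    rw [col]; funext r
    fin_cases j <;> fin_cases r <;> simp [gC]
  set lam := hh (e 0) (e 0) with hlam
  have hB0 : ∀ j, img H.i H.hi gB *ᵥ Pi.single j 1 = (Pi.single (![2, 3, 0, 1] j : Fin 4) 1 : V4) := fun j => by
    rw [col]; funext r
    fin_cases j <;> fin_cases r <;> simp [gB]
  have hD0 : ∀ j, img H.i H.hi gD *ᵥ Pi.single j 1 = (Pi.single (![1, 0, 3, 2] j : Fin 4) 1 : V4) := fun j => by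
    rw [col]; funext r
    fin_cases j <;> fin_cases r <;> simp [gD]
  have d02 : hh (e 2) (e 2) = lam := by
    have h := act gB_sq H.hB (Pi.single 0 1) (Pi.single 0 1); rw [hB0] at h; exact h
  have d01 : hh (e 1) (e 1) = lam := by
    have h := act gD_sq H.hD (Pi.single 0 1) (Pi.single 0 1); rw [hD0] at h; exact h
  have d13 : hh (e 3) (e 3) = lam := by
    have h := act gB_sq H.hB (Pi.single 1 1) (Pi.single 1 1); rw [hB0] at h; exact h.trans d01
  have sym : ∀ j k, hh (e j) (e k) = 0 → hh (e k) (e j) = 0 := fun j k h => by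
    rw [← form_conj C, h, map_zero]
  have o02 : hh (e 0) (e 2) = 0 := flip gA_sq H.hA 0 2 (-1) rfl (by simpa using hA0 0) (by simpa using hA0 2)
  have o03 : hh (e 0) (e 3) = 0 := flip gA_sq H.hA 0 3 (-1) rfl (by simpa using hA0 0) (by simpa using hA0 3)
  have o12 : hh (e 1) (e 2) = 0 := flip gA_sq H.hA 1 2 (-1) rfl (by simpa using hA0 1) (by simpa using hA0 2)
  have o13 : hh (e 1) (e 3) = 0 := flip gA_sq H.hA 1 3 (-1) rfl (by simpa using hA0 1) (by simpa using hA0 3)
  have o01 : hh (e 0) (e 1) = 0 := flip gC_sq H.hC 0 1 (-1) rfl (by simpa using hC0 0) (by simpa using hC0 1)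
  have o23 : hh (e 2) (e 3) = 0 := flip gC_sq H.hC 2 3 (-1) rfl (by simpa using hC0 2) (by simpa using hC0 3)
  have hJ : ∀ j k, hh (e j) (e k) = if j = k then lam else 0 := by
    intro j k
    fin_cases j <;> fin_cases k <;>
      simp [hlam.symm, d01, d02, d13, o01, o02, o03, o12, o13, o23, sym _ _ o01, sym _ _ o02, sym _ _ o03,
        sym _ _ o12, sym _ _ o13, sym _ _ o23]
  have hform : ∀ u v, hh ((H.g : M4) *ᵥ u) ((H.g : M4) *ᵥ v) = lam * hh u v := fun u v => by
    rw [gram_cols C e (fun k => rfl) _ hJ, form_eq C u v]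
    simp [Fin.sum_univ_four]
    ring
  have hlam0 : lam ≠ 0 := by
    intro h0
    have h := congrFun (show (Pi.single 0 1 : V4) = 0 from
      Matrix.mulVec_injective_iff_isUnit.2 H.g.isUnit (by
        show (H.g : M4) *ᵥ _ = (H.g : M4) *ᵥ 0
        rw [Matrix.mulVec_zero]
        refine ext_form C fun x => ?_
        have hx : x = (H.g : M4) *ᵥ (((H.g⁻¹ : GL (Fin 4) F) : M4) *ᵥ x) := by
          rw [Matrix.mulVec_mulVec, ← Units.val_mul, mul_inv_cancel, Units.val_one, Matrix.one_mulVec]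
        rw [form_zero_left, hx, hform, h0, zero_mul])) 0
    simp at h
  obtain ⟨t, ht0, ht⟩ := CfsgLib.Hermitian.exists_norm C.ne_id C.invol (inv_ne_zero hlam0)
    (by rw [map_inv₀, hlam, form_conj C])
  let T : Fˣ := Units.mk0 t ht0
  refine ⟨⟨H.i, H.hi, H.g * Sc T, by rw [conj_Sc]; exact H.hA, by rw [conj_Sc]; exact H.hB,
    by rw [conj_Sc]; exact H.hC, by rw [conj_Sc]; exact H.hD, H.scal, by simp only [conj_Sc]; exact H.gen⟩, ?_⟩
  refine mem_GU4.2 fun u v => ?_
  show hh (((H.g * Sc T : GL (Fin 4) F) : M4) *ᵥ u) (((H.g * Sc T : GL (Fin 4) F) : M4) *ᵥ v) = _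
  rw [Units.val_mul, Sc_val, Matrix.mul_smul, mul_one, Matrix.smul_mulVec, Matrix.smul_mulVec, form_smul_left,
    form_smul_right C, hform]
  calc t * (C.σ t * (lam * hh u v)) = (C.σ t * t * lam) * hh u v := by ring
    _ = hh u v := by rw [ht, inv_mul_cancel₀ hlam0, one_mul]

end CfsgLib.HeisFour
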