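import Cfsg.Agent.HeisFour.Unitary
import Cfsg.Agent.HeisFour.Neg
import Cfsg.Agent.HeisFour.UFrame

/-!
Unitary elements which do not normalise a group of symplectic type of order `2 ^ 6`.
-/

set_option autoImplicit false

namespace CfsgLib.HeisFour

open Matrix Subgroup CfsgLib.UGeom

variable {F : Type*} [Field F] [Fintype F] {q : ℕ}

local notation "M4" => Matrix (Fin 4) (Fin 4) F
local notation "V4" => (Fin 4 → F)

/-- In characteristic three a transvection normalises only trivially. -/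
theorem transvection_scalar {R : Subgroup (GL (Fin 4) F)} (hR : Facts R) (h2 : (2 : F) ≠ 0) (h3 : (3 : F) = 0)
    {y : GL (Fin 4) F} (hN : ∀ v ∈ R, y * v * y⁻¹ ∈ R) (hy : y ^ 3 = 1) {a b : V4} (hba : b ⬝ᵥ a = 0)
    (hyv : (y : M4) = 1 + Matrix.vecMulVec a b) : ∃ c : F, (y : M4) = c • 1 := by
  classical
  set N := Matrix.vecMulVec a b with hNd
  have hNN : N * N = 0 := by rw [hNd, Matrix.vecMulVec_mul_vecMulVec, hba, zero_smul, Matrix.vecMulVec_zero]
  let c : GL (Fin 4) F → F := fun u => b ⬝ᵥ ((u : M4) *ᵥ a)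
  have hNUN : ∀ u : GL (Fin 4) F, N * (u : M4) * N = c u • N := fun u => by
    rw [mul_assoc, hNd, Matrix.mul_vecMulVec, Matrix.vecMulVec_mul_vecMulVec, Matrix.vecMulVec_smul]
  have hinv : ((y⁻¹ : GL (Fin 4) F) : M4) = 1 - N := Units.inv_eq_of_mul_eq_one_right (by
    rw [hyv]
    simp only [add_mul, mul_sub, one_mul, mul_one, hNN]; abel)
  let A : ℕ → GL (Fin 4) F → GL (Fin 4) F := fun m u => y ^ m * u * (y ^ m)⁻¹
  have hsum : ∀ u : GL (Fin 4) F, (A 0 u : M4) + (A 1 u : M4) + (A 2 u : M4) = c u • N := fun u => by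
    simp only [A, pow_zero, pow_one, sq, one_mul, inv_one, mul_one, _root_.mul_inv_rev, Units.val_mul, hinv, hyv]
    have e : (u : M4) + (1 + N) * u * (1 - N) + (1 + N) * (1 + N) * u * ((1 - N) * (1 - N)) =
        (3 : F) • ((u : M4) + N * u - u * N) - (5 : F) • (N * u * N) + (-2 : F) • (N * u * (N * N)) +
          (2 : F) • ((N * N) * u * N) + (-1 : F) • ((N * N) * u) + (-1 : F) • (u * (N * N)) +
          (2 : F) • (N * N * u) + (2 : F) • (u * (N * N)) + (4 : F) • (N * u * (N * N)) + (-4 : F) • (N * N * u * N) +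
          (N * N) * u * (N * N) := by
      simp only [add_mul, mul_add, sub_mul, mul_sub, one_mul, mul_one, mul_assoc]
      match_scalars <;> ring
    rw [e, hNN, h3]
    simp only [zero_smul, zero_mul, mul_zero, smul_zero, add_zero, zero_sub, hNUN, smul_smul, ← neg_smul]
    rw [show -((5 : F) * c u) = c u by linear_combination (-2 * c u) * h3]
  -- the fixed points
  haveI : Finite R := Nat.finite_of_card_ne_zero (by rw [hR.card]; norm_num)
  haveI : Fintype R := Fintype.ofFinite R
  set K := (centralizer {y}).subgroupOf R with hK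
  have hKmem : ∀ u : R, u ∈ K ↔ y * (u : GL (Fin 4) F) = u * y := fun u => by
    rw [hK, mem_subgroupOf, mem_centralizer_singleton_iff, eq_comm]
  have hAmem : ∀ m, ∀ u ∈ R, A m u ∈ R := by
    intro m
    induction m with
    | zero => intro u hu; simpa [A] using hu
    | succ m ih =>
      intro u hu
      have := hN _ (ih u hu)
      convert this using 1
      simp only [A, pow_succ']; group
  have hdiag : ∀ v : R, v ∉ K → (c v • N * (((v : GL (Fin 4) F)⁻¹ : GL (Fin 4) F) : M4)).trace = 4 := by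
    intro v hv
    rw [← hsum, add_mul, add_mul, Matrix.trace_add, Matrix.trace_add, ← Units.val_mul, ← Units.val_mul, ← Units.val_mul]
    have z : ∀ m, ¬ 3 ∣ m → ((A m v * (v : GL (Fin 4) F)⁻¹ : GL (Fin 4) F) : M4).trace = 0 := fun m hm =>
      trace_eq_zero hR h2 (R.mul_mem (hAmem m v v.2) (R.inv_mem v.2)) fun d hd => hv ((hKmem v).2
        (coset_fixed hR hN Nat.prime_three (by norm_num) hy v.2 hm (c := d) (by
          rw [← hd, inv_mul_cancel_right])))
    rw [z 1 (by norm_num), z 2 (by norm_num), add_zero, add_zero]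
    simp [A]
  have h4 : (4 : F) ≠ 0 := by rw [show (4 : F) = 2 * 2 by norm_num]; exact mul_ne_zero h2 h2
  -- any moved element lies in the orbit of another one
  have horb : ∀ u v : R, u ∉ K → v ∉ K → ∃ (m : Fin 3) (d : rootsOfUnity 4 F),
      (v : GL (Fin 4) F) = Sc (d : Fˣ) * A m u := by
    intro u v hu hv
    have hu' := hdiag u hu
    have hv' := hdiag v hv
    rw [Matrix.smul_mul, Matrix.trace_smul, smul_eq_mul] at hu' hv'
    have hne : (c u • N * (((v : GL (Fin 4) F)⁻¹ : GL (Fin 4) F) : M4)).trace ≠ 0 := by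
      rw [Matrix.smul_mul, Matrix.trace_smul, smul_eq_mul]
      exact mul_ne_zero (fun h => h4 (by rw [← hu', h, zero_mul])) fun h => h4 (by rw [← hv', h, mul_zero])
    by_contra hno
    push Not at hno
    apply hne
    rw [← hsum, add_mul, add_mul, Matrix.trace_add, Matrix.trace_add, ← Units.val_mul, ← Units.val_mul, ← Units.val_mul]
    have z : ∀ m : Fin 3, ((A m u * (v : GL (Fin 4) F)⁻¹ : GL (Fin 4) F) : M4).trace = 0 := fun m =>
      trace_eq_zero hR h2 (R.mul_mem (hAmem m u u.2) (R.inv_mem v.2)) fun d hd => by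
        have hd4 : d ^ 4 = 1 := root_four hR (hd ▸ R.mul_mem (hAmem m u u.2) (R.inv_mem v.2))
        refine hno m ⟨d⁻¹, (mem_rootsOfUnity _ _).2 (by rw [inv_pow, hd4, inv_one])⟩ ?_
        have e : A m u = Sc d * (v : GL (Fin 4) F) := by rw [← hd, inv_mul_cancel_right]
        rw [e, ← mul_assoc]
        show _ = Sc d⁻¹ * Sc d * _
        rw [show Sc d⁻¹ * Sc d = (1 : GL (Fin 4) F) by simp [Sc, ← map_mul], one_mul]
    have z0 := z 0; have z1 := z 1; have z2 := z 2
    simp only [Fin.val_zero, Fin.val_one, Fin.val_two] at z0 z1 z2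
    rw [z0, z1, z2, add_zero, add_zero]
  by_cases hall : ∀ u : R, u ∈ K
  · refine hR.irred _ fun u hu => ?_
    rw [← Units.val_mul, ← Units.val_mul, (hKmem ⟨u, hu⟩).1 (hall _)]
  exfalso
  push Not at hall
  obtain ⟨u, hu⟩ := hall
  choose m d hmd using fun v : {v : R // v ∉ K} => horb u v.1 hu v.2
  have hinj : Function.Injective fun v => (m v, d v) := fun v w h => by
    refine Subtype.ext (Subtype.ext ?_)
    rw [hmd v, hmd w, show m v = m w from congrArg Prod.fst h, show d v = d w from congrArg Prod.snd h]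
  have h12 : Nat.card {v : R // v ∉ K} ≤ 12 := by
    refine (Nat.card_le_card_of_injective _ hinj).trans ?_
    rw [Nat.card_prod, Nat.card_fin]
    exact (Nat.mul_le_mul_left 3 (card_rootsOfUnity F 4)).trans le_rfl
  have hsplit : Nat.card {v : R // v ∈ K} + Nat.card {v : R // v ∉ K} = 64 := by
    rw [← Nat.card_sum, Nat.card_congr (Equiv.sumCompl _), hR.card]; norm_num
  have hd : Nat.card K ∣ 2 ^ 6 := hR.card ▸ K.card_subgroup_dvd_card
  have hlt : Nat.card K < 64 := by
    have h1 : 0 < Nat.card {v : R // v ∉ K} := Nat.card_pos_iff.2 ⟨⟨⟨u, hu⟩⟩, inferInstance⟩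
    have hKe : Nat.card {v : R // v ∈ K} = Nat.card K := rfl
    omega
  obtain ⟨e, he, hKe⟩ := (Nat.dvd_prime_pow Nat.prime_two).1 hd
  have hKe' : Nat.card {v : R // v ∈ K} = 2 ^ e := hKe
  have h52 : 52 ≤ 2 ^ e := by omega
  rw [hKe] at hlt
  interval_cases e <;> omega

/-- A pair of equal blocks in `SU_4` with scalar sum with its inverse. -/
theorem exists_double_unitary (C : Conj F q) (h2 : (2 : F) ≠ 0) (h5 : (5 : F) ≠ 0) {t : F} (ht : t * t + t = 1)
    (hσt : C.σ t = t) : ∃ x ∈ Cfsg.GU 4 F q, x ^ 5 = 1 ∧ Matrix.GeneralLinearGroup.det x = 1 ∧ x ≠ 1 ∧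
      (x : M4) + ((x⁻¹ : GL (Fin 4) F) : M4) = t • 1 := by
  set s := t / 2 with hsd
  have hts : t = 2 * s := by rw [hsd]; field_simp
  have hσs : C.σ s = s := by rw [hsd, map_div₀, hσt, map_ofNat]
  obtain ⟨β, hβ⟩ : ∃ β, C.σ β * β = 1 - s * s := by
    rcases eq_or_ne (1 - s * s) 0 with h | h
    · exact ⟨0, by rw [h, mul_zero]⟩
    · obtain ⟨c, -, hc⟩ := CfsgLib.Hermitian.exists_norm C.ne_id C.invol h (by rw [map_sub, map_mul, hσs, map_one])
      exact ⟨c, hc⟩
  let X : M4 := !![s, β, 0, 0; -C.σ β, s, 0, 0; 0, 0, s, β; 0, 0, -C.σ β, s]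
  let X' : M4 := !![s, -β, 0, 0; C.σ β, s, 0, 0; 0, 0, s, -β; 0, 0, C.σ β, s]
  have hXX : X * X' = 1 := by
    ext r k; fin_cases r <;> fin_cases k <;> simp [X, X', Matrix.mul_apply, Fin.sum_univ_four] <;>
      first | ring1 | linear_combination hβ
  have hXX' : X' * X = 1 := by
    ext r k; fin_cases r <;> fin_cases k <;> simp [X, X', Matrix.mul_apply, Fin.sum_univ_four] <;>
      first | ring1 | linear_combination hβ
  let x : GL (Fin 4) F := ⟨X, X', hXX, hXX'⟩
  have hsum : X + X' = t • 1 := by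
    rw [hts]
    ext r k; fin_cases r <;> fin_cases k <;> simp [X, X'] <;> ring
  have hsq : ∀ u : M4, X * (X * u) = t • (X * u) - u := fun u => by
    have h1 : X * X = t • X - 1 := by
      rw [show X * X = X * (t • 1 - X') by rw [← hsum]; congr 1; abel, mul_sub, hXX, Matrix.mul_smul, mul_one]
    rw [← mul_assoc, h1, sub_mul, Matrix.smul_mul, one_mul]
  refine ⟨x, mem_GU4_of_mat C ?_, Units.ext ?_, Units.ext ?_, fun h => ?_, hsum⟩
  · show Xᵀ * X.map C.σ = 1
    ext r k; fin_cases r <;> fin_cases k <;> simp [X, Matrix.mul_apply, Fin.sum_univ_four, hσs, C.invol] <;>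
      first | ring1 | linear_combination hβ
  · rw [Units.val_pow_eq_pow_val, Units.val_one]
    show X ^ 5 = 1
    rw [show X ^ 5 = X * (X * (X * (X * (X * 1)))) by simp [pow_succ, mul_assoc]]
    simp only [hsq, mul_sub, Matrix.mul_smul, smul_sub, smul_smul]
    match_scalars
    all_goals first
      | ring1
      | linear_combination (t * t - t - 1) * ht
      | linear_combination (1 - t) * ht
      | linear_combination (t - 1) * ht
  · show X.det = 1
    simp [X, Matrix.det_succ_row_zero, Fin.sum_univ_succ, Fin.succAbove]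
    linear_combination (s * s + C.σ β * β + 1) * hβ
  · have h1 : s = 1 := by simpa [x, X] using congrArg (fun g : GL (Fin 4) F => (g : M4) 0 0) h
    rw [hts, h1] at ht
    exact h5 (by linear_combination ht)

end CfsgLib.HeisFour
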