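import Cfsg.Agent.HeisFour.Data
import Cfsg.Agent.HeisFour.Classes
import Cfsg.Agent.UGeom.Count
import Cfsg.Agent.S0755

/-!
Frames and conjugacy in `GU_4` for the normaliser of a group of symplectic type of order `2 ^ 6`.
-/

set_option autoImplicit false

namespace CfsgLib.HeisFour

open Matrix Module CfsgLib.UGeom

variable {F : Type*} [Field F] [Fintype F] {q : ℕ}

local notation "M4" => Matrix (Fin 4) (Fin 4) F
local notation "V4" => (Fin 4 → F)
local notation "hh" => Cfsg.hermForm 4 F q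

variable (C : Conj F q)
include C

omit C in
theorem mem_GU4 {g : GL (Fin 4) F} :
    g ∈ Cfsg.GU 4 F q ↔ ∀ u v : V4, hh ((g : M4) *ᵥ u) ((g : M4) *ᵥ v) = hh u v :=
  Iff.rfl

/-- The form in prescribed columns. -/
theorem gram_cols {P : GL (Fin 4) F} (e : Fin 4 → V4) (hP : ∀ k, (P : M4) *ᵥ Pi.single k 1 = e k)
    (J : Fin 4 → Fin 4 → F) (hJ : ∀ i j, hh (e i) (e j) = J i j) (u v : V4) :
    hh ((P : M4) *ᵥ u) ((P : M4) *ᵥ v) = ∑ i, ∑ j, u i * C.σ (v j) * J i j := by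
  have hexp : ∀ w : V4, (P : M4) *ᵥ w = w 0 • e 0 + w 1 • e 1 + w 2 • e 2 + w 3 • e 3 := fun w => by
    conv_lhs => rw [show w = w 0 • Pi.single 0 1 + w 1 • Pi.single 1 1 + w 2 • Pi.single 2 1 + w 3 • Pi.single 3 1 by
      funext k; fin_cases k <;> simp]
    simp only [Matrix.mulVec_add, Matrix.mulVec_smul, hP]
  simp only [hexp, form_add_left, form_add_right C, form_smul_left, form_smul_right C, hJ, Fin.sum_univ_four]
  ring

/-- Conjugating in `SU_4` through frames with the same form. -/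
theorem conj_frames {x y P Q D : GL (Fin 4) F} (hx : x * P = P * D) (hy : y * Q = Q * D)
    (hG : ∀ u v : V4, hh ((P : M4) *ᵥ u) ((P : M4) *ᵥ v) = hh ((Q : M4) *ᵥ u) ((Q : M4) *ᵥ v))
    (hcent : ∀ δ : Fˣ, (δ : F) * C.σ δ = 1 → ∃ E : GL (Fin 4) F, E * D = D * E ∧
      Matrix.GeneralLinearGroup.det E = δ ∧ ∀ u v : V4,
        hh ((P : M4) *ᵥ ((E : M4) *ᵥ u)) ((P : M4) *ᵥ ((E : M4) *ᵥ v)) = hh ((P : M4) *ᵥ u) ((P : M4) *ᵥ v)) :
    ∃ g ∈ Cfsg.GU 4 F q ⊓ Cfsg.Geo.specialLinear (Fin 4) F, g⁻¹ * x * g = y := by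
  have hQ : ∀ u : V4, (Q : M4) *ᵥ (((Q⁻¹ : GL (Fin 4) F) : M4) *ᵥ u) = u := fun u => by
    rw [Matrix.mulVec_mulVec, ← Units.val_mul, mul_inv_cancel, Units.val_one, Matrix.one_mulVec]
  have hk : P * Q⁻¹ ∈ Cfsg.GU 4 F q := mem_GU4.2 fun u v => by
    rw [Units.val_mul, ← Matrix.mulVec_mulVec, ← Matrix.mulVec_mulVec, hG, hQ, hQ]
  set δ : Fˣ := (Matrix.GeneralLinearGroup.det (P * Q⁻¹))⁻¹ with hδd
  have hδ : δ ^ (q + 1) = 1 := by rw [hδd, inv_pow, det_pow C ⟨_, hk⟩, inv_one]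
  obtain ⟨E, hED, hE, hEi⟩ := hcent δ (by
    rw [C.pow, ← pow_succ', ← Units.val_pow_eq_pow_val, hδ, Units.val_one])
  refine ⟨P * E * Q⁻¹, Subgroup.mem_inf.2 ⟨mem_GU4.2 fun u v => ?_, ?_⟩, ?_⟩
  · rw [Units.val_mul, Units.val_mul, ← Matrix.mulVec_mulVec, ← Matrix.mulVec_mulVec, ← Matrix.mulVec_mulVec,
      ← Matrix.mulVec_mulVec, hEi, hG, hQ, hQ]
  · show Matrix.GeneralLinearGroup.det _ = 1
    rw [map_mul, map_mul, hE, mul_comm (Matrix.GeneralLinearGroup.det P) δ, mul_assoc, ← map_mul, hδd, inv_mul_cancel]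
  · have hx' : x = P * D * P⁻¹ := by rw [← hx, mul_inv_cancel_right]
    have hy' : y = Q * D * Q⁻¹ := by rw [← hy, mul_inv_cancel_right]
    calc (P * E * Q⁻¹)⁻¹ * x * (P * E * Q⁻¹) = Q * (E⁻¹ * (D * E)) * Q⁻¹ := by rw [hx']; group
      _ = y := by rw [← hED, inv_mul_cancel_left, hy']

/-- An orthonormal basis of a non-degenerate subspace. -/
theorem exists_on {W : Submodule F V4} (hW : ∀ u ∈ W, (∀ v ∈ W, hh u v = 0) → u = 0) :
    ∃ e : Fin (finrank F W) → V4, (∀ i, e i ∈ W) ∧ ∀ i j, hh (e i) (e j) = if i = j then 1 else 0 := by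
  let B : W →ₛₗ[C.σ] W →ₗ[F] F := LinearMap.mk₂'ₛₗ C.σ (RingHom.id F) (fun u v => hh (v : V4) (u : V4))
    (fun a b c => by simp [form_add_right C]) (fun a b c => by simp [form_smul_right C])
    (fun a b c => by simp [form_add_left]) (fun a b c => by simp [form_smul_left])
  have hB : ∀ u v : W, B u v = hh (v : V4) (u : V4) := fun u v => rfl
  obtain ⟨b, hb⟩ := Cfsg.Agent.S0755.result C.σ C.ne_id C.invol B ⟨fun u v => by rw [hB, hB]; exact form_conj C _ _⟩
    ⟨fun u hu => Subtype.ext (hW u u.2 fun v hv => by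
        rw [← form_conj C v u, show hh v (u : V4) = B u ⟨v, hv⟩ from rfl, hu, map_zero]),
      fun v hv => Subtype.ext (hW v v.2 fun u hu => by rw [show hh (v : V4) u = B ⟨u, hu⟩ v from rfl, hv])⟩
  refine ⟨fun i => (b i : V4), fun i => (b i).2, fun i j => ?_⟩
  rw [← hB, hb]
  split_ifs <;> simp_all [eq_comm]

omit C in
/-- Vectors with an invertible Gram matrix are independent. -/
theorem li_of_gram {e : Fin 4 → V4} (h : ∀ c : Fin 4 → F, (∀ j, c 0 * hh (e 0) (e j) + c 1 * hh (e 1) (e j) +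
    c 2 * hh (e 2) (e j) + c 3 * hh (e 3) (e j) = 0) → c = 0) : LinearIndependent F e := by
  rw [Fintype.linearIndependent_iff]
  intro c hc k
  refine congrFun (h c fun j => ?_) k
  rw [← form_smul_left, ← form_smul_left, ← form_smul_left, ← form_smul_left, ← form_add_left, ← form_add_left,
    ← form_add_left, ← Fin.sum_univ_four (fun i => c i • e i), hc, form_zero_left]

theorem norm_zero_iff {a : F} : a * C.σ a = 0 ↔ a = 0 := by
  simp

/-- Eigenvectors with non-reciprocal eigenvalues are orthogonal. -/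
theorem eig_orth4 {x : GL (Fin 4) F} (hx : x ∈ Cfsg.GU 4 F q) {a b : F} (hab : a * C.σ b ≠ 1)
    {u v : V4} (hu : (x : M4) *ᵥ u = a • u) (hv : (x : M4) *ᵥ v = b • v) : hh u v = 0 := by
  have h := mem_GU4.1 hx u v
  rw [hu, hv, form_smul_left, form_smul_right C, ← mul_assoc] at h
  by_contra h0
  exact hab (mul_right_cancel₀ h0 (h.trans (one_mul _).symm))

/-- A totally isotropic pair of subspaces splitting the space. -/
theorem isotropic_finrank {W W' : Submodule F V4} (hW : ∀ u ∈ W, ∀ v ∈ W, hh u v = 0)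
    (hsum : ∀ u, ∃ a ∈ W, ∃ b ∈ W', u = a + b) :
    finrank F W ≤ finrank F W' := by
  let φ : W →ₛₗ[C.σ] (W' →ₗ[F] F) := LinearMap.mk₂'ₛₗ C.σ (RingHom.id F) (fun u v => hh (v : V4) (u : V4))
    (fun a b c => by simp [form_add_right C]) (fun a b c => by simp [form_smul_right C])
    (fun a b c => by simp [form_add_left]) (fun a b c => by simp [form_smul_left])
  by_contra hlt
  push Not at hlt
  -- some vector of `W` is orthogonal to `W'`
  let b' := Module.finBasis F W'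
  let ψ : W →ₛₗ[C.σ] (Fin (finrank F W') → F) :=
    { toFun := fun u i => φ u (b' i)
      map_add' := fun a c => funext fun i => by simp
      map_smul' := fun a c => funext fun i => by simp }
  let ψ' : W →ₗ[F] (Fin (finrank F W') → F) :=
    { toFun := fun u i => C.σ (ψ u i)
      map_add' := fun a c => funext fun i => by simp
      map_smul' := fun a c => funext fun i => by simp [C.invol] }
  obtain ⟨u, hu, hu0⟩ : ∃ u : W, u ≠ 0 ∧ ψ' u = 0 := by
    have hni : ¬ Function.Injective ψ' := fun hi => by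
      have := LinearMap.finrank_le_finrank_of_injective hi
      rw [Module.finrank_fin_fun] at this
      omega
    rw [← LinearMap.ker_eq_bot] at hni
    obtain ⟨u, hu, hu0⟩ := (Submodule.ne_bot_iff _).1 hni
    exact ⟨u, hu0, hu⟩
  have hzero : φ u = 0 := b'.ext fun i => by
    have := congrFun hu0 i
    simpa [ψ', ψ] using this
  refine hu (Subtype.ext (ext_form C fun v => ?_))
  obtain ⟨a, ha, b, hb, rfl⟩ := hsum v
  rw [ZeroMemClass.coe_zero, form_zero_left, form_add_right C, hW u u.2 a ha, zero_add, ← form_conj C b (u : V4),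
    show hh b (u : V4) = φ u ⟨b, hb⟩ from rfl, hzero]
  simp

/-- The frame of elements whose square is a scalar. -/
theorem diag_sq (h2 : (2 : F) ≠ 0) {x : GL (Fin 4) F} (hx : x ∈ Cfsg.GU 4 F q) {a : F} (ha : a * C.σ a = 1)
    (hsq : ∀ u : V4, (x : M4) *ᵥ ((x : M4) *ᵥ u) = (a * a) • u) :
    ∃ (P : GL (Fin 4) F) (d : Fin 4 → F), P ∈ Cfsg.GU 4 F q ∧ (∀ k, d k = 1 ∨ d k = -1) ∧
      (x : M4) * (P : M4) = (P : M4) * (a • Matrix.diagonal d) := by
  have ha0 : a ≠ 0 := fun h => by rw [h, zero_mul] at ha; exact zero_ne_one ha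
  set M := (x : M4)
  have hne : a * C.σ (-a) ≠ 1 := by
    rw [map_neg, mul_neg, ha]
    exact fun h => h2 (by linear_combination -h)
  have hne' : -a * C.σ a ≠ 1 := by
    rw [neg_mul, ha]
    exact fun h => h2 (by linear_combination -h)
  let W₀ := LinearMap.ker (Matrix.toLin' (M - a • 1))
  let W₁ := LinearMap.ker (Matrix.toLin' (M + a • 1))
  have hW₀ : ∀ u, u ∈ W₀ ↔ M *ᵥ u = a • u := fun u => by
    simp [W₀, LinearMap.mem_ker, Matrix.sub_mulVec, sub_eq_zero, Matrix.smul_mulVec]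
  have hW₁ : ∀ u, u ∈ W₁ ↔ M *ᵥ u = (-a) • u := fun u => by
    simp [W₁, LinearMap.mem_ker, Matrix.add_mulVec, add_eq_zero_iff_eq_neg, Matrix.smul_mulVec, neg_smul]
  have hdec : ∀ u : V4, ∃ w₀ ∈ W₀, ∃ w₁ ∈ W₁, u = w₀ + w₁ := fun u => by
    refine ⟨(2 * a)⁻¹ • (M *ᵥ u + a • u), ?_, (2 * a)⁻¹ • (a • u - M *ᵥ u), ?_, ?_⟩
    · rw [hW₀, Matrix.mulVec_smul, Matrix.mulVec_add, Matrix.mulVec_smul, hsq]
      match_scalars <;> ring
    · rw [hW₁, Matrix.mulVec_smul, Matrix.mulVec_sub, Matrix.mulVec_smul, hsq]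
      match_scalars <;> ring
    · match_scalars <;> field_simp <;> ring
  have horth : ∀ u ∈ W₀, ∀ v ∈ W₁, hh u v = 0 := fun u hu v hv =>
    eig_orth4 C hx hne ((hW₀ u).1 hu) ((hW₁ v).1 hv)
  have horth' : ∀ u ∈ W₁, ∀ v ∈ W₀, hh u v = 0 := fun u hu v hv =>
    eig_orth4 C hx hne' ((hW₁ u).1 hu) ((hW₀ v).1 hv)
  obtain ⟨e₀, he₀, ho₀⟩ := exists_on C (W := W₀) fun u hu h => ext_form C fun v => by
    obtain ⟨w₀, h0, w₁, h1, rfl⟩ := hdec v
    rw [form_zero_left, form_add_right C, h w₀ h0, horth u hu w₁ h1, add_zero]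
  obtain ⟨e₁, he₁, ho₁⟩ := exists_on C (W := W₁) fun u hu h => ext_form C fun v => by
    obtain ⟨w₀, h0, w₁, h1, rfl⟩ := hdec v
    rw [form_zero_left, form_add_right C, horth' u hu w₀ h0, h w₁ h1, add_zero]
  have hdim : finrank F W₀ + finrank F W₁ = 4 := by
    have hc : IsCompl W₀ W₁ := by
      constructor
      · rw [Submodule.disjoint_def]
        intro u h0 h1
        have h : (2 * a) • u = 0 := by
          rw [two_mul, add_smul]
          nth_rewrite 2 [← (hW₀ u).1 h0]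
          rw [(hW₁ u).1 h1, neg_smul, add_neg_cancel]
        exact (smul_eq_zero.1 h).resolve_left (mul_ne_zero h2 ha0)
      · rw [codisjoint_iff, eq_top_iff]
        intro u _
        obtain ⟨w₀, h0, w₁, h1, rfl⟩ := hdec u
        exact Submodule.mem_sup.2 ⟨w₀, h0, w₁, h1, rfl⟩
    rw [Submodule.finrank_add_eq_of_isCompl hc, Module.finrank_fin_fun]
  let ε : Fin 4 ≃ Fin (finrank F W₀) ⊕ Fin (finrank F W₁) := (finCongr hdim.symm).trans finSumFinEquiv.symm
  let e : Fin 4 → V4 := fun k => Sum.elim e₀ e₁ (ε k)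
  let d : Fin 4 → F := fun k => Sum.elim (fun _ => 1) (fun _ => -1) (ε k)
  have hon : ∀ i j, hh (e i) (e j) = if i = j then 1 else 0 := by
    intro i j
    have key : ∀ s t, hh (Sum.elim e₀ e₁ s) (Sum.elim e₀ e₁ t) = if s = t then 1 else 0 := by
      rintro (s | s) (t | t)
      · simp [ho₀]
      · simpa using horth _ (he₀ s) _ (he₁ t)
      · simpa using horth' _ (he₁ s) _ (he₀ t)
      · simp [ho₁]
    show hh (Sum.elim e₀ e₁ (ε i)) (Sum.elim e₀ e₁ (ε j)) = _
    rw [key]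
    by_cases h : i = j <;> simp [h]
  obtain ⟨P, hP⟩ := exists_cols e (li_of_gram (q := q) fun c hc => funext fun k => by
    have := hc k
    fin_cases k <;> simpa [hon] using this)
  refine ⟨P, d, mem_GU4.2 fun u v => ?_, fun k => ?_, Matrix.ext_of_mulVec_single fun k => ?_⟩
  · rw [gram_cols C e hP _ hon, form_eq C]
    simp [Fin.sum_univ_four]
  · show Sum.elim (fun _ => (1 : F)) (fun _ => -1) (ε k) = 1 ∨ _
    rcases hε : ε k with s | s
    · exact Or.inl (by simp [d, hε])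
    · exact Or.inr (by simp [d, hε])
  · have hDk : (a • Matrix.diagonal d) *ᵥ Pi.single k (1 : F) = (a * d k) • (Pi.single k 1 : V4) := by
      funext r
      rw [Matrix.smul_mulVec, Pi.smul_apply, Matrix.mulVec_diagonal]
      rcases eq_or_ne r k with rfl | h
      · simp
      · simp [h]
    rw [← Matrix.mulVec_mulVec, ← Matrix.mulVec_mulVec, hP, hDk, Matrix.mulVec_smul, hP]
    show M *ᵥ (Sum.elim e₀ e₁ (ε k)) = (a * Sum.elim (fun _ => (1 : F)) (fun _ => -1) (ε k)) • Sum.elim e₀ e₁ (ε k)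
    cases ε k with
    | inl s => simpa using (hW₀ _).1 (he₀ s)
    | inr s => simpa using (hW₁ _).1 (he₁ s)

/-- A square scalar of norm minus one forces determinant minus one. -/
theorem det_of_norm_neg (h2 : (2 : F) ≠ 0) {x : GL (Fin 4) F} (hx : x ∈ Cfsg.GU 4 F q) {a : F}
    (ha : a * C.σ a = -1) (hsq : ∀ u : V4, (x : M4) *ᵥ ((x : M4) *ᵥ u) = (a * a) • u) :
    (x : M4).det = a ^ 4 := by
  have ha0 : a ≠ 0 := fun h => by rw [h, zero_mul] at ha; exact one_ne_zero (neg_eq_zero.1 ha.symm)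
  set M := (x : M4)
  let W₀ := LinearMap.ker (Matrix.toLin' (M - a • 1))
  let W₁ := LinearMap.ker (Matrix.toLin' (M + a • 1))
  have hW₀ : ∀ u, u ∈ W₀ ↔ M *ᵥ u = a • u := fun u => by
    simp [W₀, LinearMap.mem_ker, Matrix.sub_mulVec, sub_eq_zero, Matrix.smul_mulVec]
  have hW₁ : ∀ u, u ∈ W₁ ↔ M *ᵥ u = (-a) • u := fun u => by
    simp [W₁, LinearMap.mem_ker, Matrix.add_mulVec, add_eq_zero_iff_eq_neg, Matrix.smul_mulVec, neg_smul]
  have hdec : ∀ u : V4, ∃ w₀ ∈ W₀, ∃ w₁ ∈ W₁, u = w₀ + w₁ := fun u => by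
    refine ⟨(2 * a)⁻¹ • (M *ᵥ u + a • u), ?_, (2 * a)⁻¹ • (a • u - M *ᵥ u), ?_, ?_⟩
    · rw [hW₀, Matrix.mulVec_smul, Matrix.mulVec_add, Matrix.mulVec_smul, hsq]
      match_scalars <;> ring
    · rw [hW₁, Matrix.mulVec_smul, Matrix.mulVec_sub, Matrix.mulVec_smul, hsq]
      match_scalars <;> ring
    · match_scalars <;> field_simp <;> ring
  have hne : ∀ b : F, b * C.σ b = -1 → b * C.σ b ≠ 1 := fun b hb h => h2 (by linear_combination hb - h)
  have hiso₀ : ∀ u ∈ W₀, ∀ v ∈ W₀, hh u v = 0 := fun u hu v hv =>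
    eig_orth4 C hx (hne a ha) ((hW₀ u).1 hu) ((hW₀ v).1 hv)
  have hiso₁ : ∀ u ∈ W₁, ∀ v ∈ W₁, hh u v = 0 := fun u hu v hv =>
    eig_orth4 C hx (hne (-a) (by rw [map_neg, neg_mul_neg, ha])) ((hW₁ u).1 hu) ((hW₁ v).1 hv)
  have hc : IsCompl W₀ W₁ := by
    constructor
    · rw [Submodule.disjoint_def]
      intro u h0 h1
      have h : (2 * a) • u = 0 := by
        rw [two_mul, add_smul]
        nth_rewrite 2 [← (hW₀ u).1 h0]
        rw [(hW₁ u).1 h1, neg_smul, add_neg_cancel]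
      exact (smul_eq_zero.1 h).resolve_left (mul_ne_zero h2 ha0)
    · rw [codisjoint_iff, eq_top_iff]
      intro u _
      obtain ⟨w₀, h0, w₁, h1, rfl⟩ := hdec u
      exact Submodule.mem_sup.2 ⟨w₀, h0, w₁, h1, rfl⟩
  have hdim := Submodule.finrank_add_eq_of_isCompl hc
  rw [Module.finrank_fin_fun] at hdim
  have l1 := isotropic_finrank C hiso₀ hdec
  have l2 := isotropic_finrank C (W := W₁) (W' := W₀) hiso₁ fun u => by
    obtain ⟨w₀, h0, w₁, h1, rfl⟩ := hdec u
    exact ⟨w₁, h1, w₀, h0, add_comm _ _⟩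
  have h0two : finrank F W₀ = 2 := by omega
  have h1two : finrank F W₁ = 2 := by omega
  let b := (Module.finBasisOfFinrankEq F W₀ h0two).prod (Module.finBasisOfFinrankEq F W₁ h1two)
  let bb := b.map (Submodule.prodEquivOfIsCompl W₀ W₁ hc)
  have hdiag : LinearMap.toMatrix bb bb (Matrix.toLin' M) =
      Matrix.diagonal (Sum.elim (fun _ => a) (fun _ => -a)) := by
    ext i j
    have hb : M *ᵥ bb j = Sum.elim (fun _ => a) (fun _ => -a) j • bb j := by
      rcases j with j | j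
      · simp only [bb, b, Basis.map_apply, Sum.elim_inl]
        exact (hW₀ _).1 (by simp [Basis.prod_apply_inl_fst, Basis.prod_apply_inl_snd])
      · simp only [bb, b, Basis.map_apply, Sum.elim_inr]
        exact (hW₁ _).1 (by simp [Basis.prod_apply_inr_fst, Basis.prod_apply_inr_snd])
    rw [LinearMap.toMatrix_apply, Matrix.toLin'_apply, hb, map_smul, Basis.repr_self]
    rcases eq_or_ne i j with rfl | h
    · simp
    · simp [h, Ne.symm h]
  rw [← LinearMap.det_toLin', ← LinearMap.det_toMatrix bb, hdiag, Matrix.det_diagonal, Fintype.prod_sum_type]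
  simp
  ring

end CfsgLib.HeisFour
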